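import Cfsg.Agent.E6Cubic.AdjDefs

/-! # The adjoint action on the roots 0 to 23 (owner: helper33) -/

set_option autoImplicit false

namespace Cfsg.Agent.E6Cubic

set_option maxHeartbeats 0 in
theorem adj_check_0 : ((List.range 4).all fun r => (List.range 78).all fun b => adjOK (0 + r) b) = true := by
  decide +kernel

set_option maxHeartbeats 0 in
theorem adj_check_4 : ((List.range 4).all fun r => (List.range 78).all fun b => adjOK (4 + r) b) = true := by
  decide +kernel

set_option maxHeartbeats 0 in
theorem adj_check_8 : ((List.range 4).all fun r => (List.range 78).all fun b => adjOK (8 + r) b) = true := by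
  decide +kernel

set_option maxHeartbeats 0 in
theorem adj_check_12 : ((List.range 4).all fun r => (List.range 78).all fun b => adjOK (12 + r) b) = true := by
  decide +kernel

set_option maxHeartbeats 0 in
theorem adj_check_16 : ((List.range 4).all fun r => (List.range 78).all fun b => adjOK (16 + r) b) = true := by
  decide +kernel

set_option maxHeartbeats 0 in
theorem adj_check_20 : ((List.range 4).all fun r => (List.range 78).all fun b => adjOK (20 + r) b) = true := by
  decide +kernel

theorem adj_check0 : ∀ r, 0 ≤ r → r < 24 → ((List.range 78).all fun b => adjOK r b) = true := by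
  intro r h1 h2
  have key : ∀ s, ((List.range 4).all fun x => (List.range 78).all fun b => adjOK (s + x) b) = true →
      s ≤ r → r < s + 4 → ((List.range 78).all fun b => adjOK r b) = true := fun s h g1 g2 => by
    have := List.all_eq_true.1 h (r - s) (List.mem_range.2 (by omega))
    rwa [show s + (r - s) = r by omega] at this
  by_cases g0 : r < 4
  · exact key 0 adj_check_0 (by omega) g0
  by_cases g1 : r < 8
  · exact key 4 adj_check_4 (by omega) g1
  by_cases g2 : r < 12
  · exact key 8 adj_check_8 (by omega) g2
  by_cases g3 : r < 16
  · exact key 12 adj_check_12 (by omega) g3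
  by_cases g4 : r < 20
  · exact key 16 adj_check_16 (by omega) g4
  exact key 20 adj_check_20 (by omega) (by omega)

end Cfsg.Agent.E6Cubic
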