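import Cfsg.Agent.E6Cubic.AdjDefs

/-! # The adjoint action on the roots 48 to 71 (owner: helper33) -/

set_option autoImplicit false

namespace Cfsg.Agent.E6Cubic

set_option maxHeartbeats 0 in
theorem adj_check_48 : ((List.range 4).all fun r => (List.range 78).all fun b => adjOK (48 + r) b) = true := by
  decide +kernel

set_option maxHeartbeats 0 in
theorem adj_check_52 : ((List.range 4).all fun r => (List.range 78).all fun b => adjOK (52 + r) b) = true := by
  decide +kernel

set_option maxHeartbeats 0 in
theorem adj_check_56 : ((List.range 4).all fun r => (List.range 78).all fun b => adjOK (56 + r) b) = true := by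
  decide +kernel

set_option maxHeartbeats 0 in
theorem adj_check_60 : ((List.range 4).all fun r => (List.range 78).all fun b => adjOK (60 + r) b) = true := by
  decide +kernel

set_option maxHeartbeats 0 in
theorem adj_check_64 : ((List.range 4).all fun r => (List.range 78).all fun b => adjOK (64 + r) b) = true := by
  decide +kernel

set_option maxHeartbeats 0 in
theorem adj_check_68 : ((List.range 4).all fun r => (List.range 78).all fun b => adjOK (68 + r) b) = true := by
  decide +kernel

theorem adj_check2 : ∀ r, 48 ≤ r → r < 72 → ((List.range 78).all fun b => adjOK r b) = true := by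
  intro r h1 h2
  have key : ∀ s, ((List.range 4).all fun x => (List.range 78).all fun b => adjOK (s + x) b) = true →
      s ≤ r → r < s + 4 → ((List.range 78).all fun b => adjOK r b) = true := fun s h g1 g2 => by
    have := List.all_eq_true.1 h (r - s) (List.mem_range.2 (by omega))
    rwa [show s + (r - s) = r by omega] at this
  by_cases g0 : r < 52
  · exact key 48 adj_check_48 (by omega) g0
  by_cases g1 : r < 56
  · exact key 52 adj_check_52 (by omega) g1
  by_cases g2 : r < 60
  · exact key 56 adj_check_56 (by omega) g2
  by_cases g3 : r < 64
  · exact key 60 adj_check_60 (by omega) g3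
  by_cases g4 : r < 68
  · exact key 64 adj_check_64 (by omega) g4
  exact key 68 adj_check_68 (by omega) (by omega)

end Cfsg.Agent.E6Cubic
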