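import Cfsg.Agent.E6Cubic.Form
import Cfsg.Prelude.Def_ChevE6

/-! # Term lists for the adjoint action in 27 coordinates (owner: helper33) -/

set_option autoImplicit false

namespace Cfsg.Agent.E6Cubic

open Cfsg.Lie Cfsg.Agent.ChevTw

variable {F : Type*} [Field F]

/-- The weight of a coordinate on a fundamental coroot. -/
def wgt (a : Fin 27) (i : ℕ) : ℤ := (weightList.getD a.val []).getD i 0

/-- The basis of the Lie algebra as terms. -/
def bTerms (b : ℕ) : List Term :=
  if b < 6 then (List.finRange 27).map fun a => (a.val, a.val, 0, wgt a b) else rootTerms (b - 6)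

/-- The identity as terms. -/
def oneTerms : List Term := (List.range 27).map fun a => (a, a, 0, 1)

/-- A root element as terms. -/
def xT (r : ℕ) (c : ℤ) : List Term := oneTerms ++ scaleT 1 c (rootTerms r)

theorem evalT_congr_deg0 (t s : F) {T : List Term} (h : ∀ x ∈ T, x.2.2.1 = 0) :
    evalT 27 t T = evalT 27 s T := by
  induction T with
  | nil => rfl
  | cons x T ih =>
    rw [evalT_cons, evalT_cons, ih fun y hy => h y (List.mem_cons_of_mem _ hy)]
    congr 1
    ext a b
    simp [termMat, h x List.mem_cons_self]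

theorem evalT_oneTerms (t : F) : evalT 27 t oneTerms = 1 := by
  ext a b
  have := evalT_cols 27 t (fun c => [(c, 0, 1)]) 27 a b
  simp only [← List.map_eq_flatMap, List.map_cons, List.map_nil, List.sum_cons, List.sum_nil] at this
  rw [oneTerms, this, if_pos b.isLt]
  simp [hit, Matrix.one_apply, Fin.ext_iff]

theorem evalT_xT (r : ℕ) (c : ℤ) (t : F) : evalT 27 t (xT r c) = 1 + ((c : F) * t) • eMat F r := by
  rw [xT, evalT_append, evalT_oneTerms, evalT_scale, pow_one, eMat,
    evalT_congr_deg0 t 1 (T := rootTerms r) fun x hx => by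
      obtain ⟨y, -, rfl⟩ := List.mem_map.1 hx; rfl]

theorem bTerms_deg0 (b : ℕ) : ∀ x ∈ bTerms b, x.2.2.1 = 0 := by
  intro x hx
  rw [bTerms] at hx
  split at hx <;> obtain ⟨y, -, rfl⟩ := List.mem_map.1 hx <;> rfl

theorem bTerms_lt (b : ℕ) : ∀ x ∈ bTerms b, x.2.1 < 27 := by
  intro x hx
  rw [bTerms] at hx
  split at hx
  · obtain ⟨y, -, rfl⟩ := List.mem_map.1 hx; exact y.isLt
  · exact rootTerms_lt _ x hx

theorem xT_lt (r : ℕ) (c : ℤ) : ∀ x ∈ xT r c, x.2.1 < 27 := by
  intro x hx
  rcases List.mem_append.1 hx with h | h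
  · obtain ⟨y, hy, rfl⟩ := List.mem_map.1 h; exact List.mem_range.1 hy
  · obtain ⟨y, hy, rfl⟩ := List.mem_map.1 h; exact rootTerms_lt r y hy

/-- The conjugate of a basis vector by a root element as terms. -/
def conjT (r b : ℕ) : List Term :=
  bTerms b ++ scaleT 1 1 (mulT (rootTerms r) (bTerms b)) ++ scaleT 1 (-1) (mulT (bTerms b) (rootTerms r)) ++
    scaleT 2 (-1) (mulT (rootTerms r) (mulT (bTerms b) (rootTerms r)))

/-- Same position and degree. -/
def samePos (x y : Term) : Bool := Nat.beq y.1 x.1 && (Nat.beq y.2.1 x.2.1 && Nat.beq y.2.2.1 x.2.2.1)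

/-- Does the term list vanish over the integers? -/
def zeroK : ℕ → List Term → Bool
  | _, [] => true
  | 0, _ :: _ => false
  | n + 1, x :: T =>
    (x.2.2.2 + ((T.filter (samePos x)).map fun y => y.2.2.2).sum == 0) &&
      zeroK n (T.filter fun y => !samePos x y)

theorem evalT_zeroK (t : F) : ∀ (n : ℕ) (T : List Term), zeroK n T = true → evalT 27 t T = 0
  | _, [], _ => rfl
  | 0, _ :: _, h => by simp [zeroK] at h
  | n + 1, x :: T, h => by
    simp only [zeroK, Bool.and_eq_true, beq_iff_eq] at h
    obtain ⟨hs, hn⟩ := h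
    have e : ∀ L : List Term, evalT 27 t L =
        (((L.filter (samePos x)).map fun y => y.2.2.2).sum : ℤ) •
          termMat 27 t (x.1, x.2.1, x.2.2.1, 1) + evalT 27 t (L.filter fun y => !samePos x y) := by
      intro L
      induction L with
      | nil => simp [evalT_nil]
      | cons y L ih =>
        rw [evalT_cons, ih, List.filter_cons, List.filter_cons]
        cases hk : samePos x y
        · simp only [Bool.not_false, if_true, Bool.false_eq_true, if_false, evalT_cons]
          abel
        · simp only [samePos, Bool.and_eq_true] at hk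
          obtain ⟨k1, k2, k3⟩ := hk
          have h1 := Nat.eq_of_beq_eq_true k1
          have h2 := Nat.eq_of_beq_eq_true k2
          have h3 := Nat.eq_of_beq_eq_true k3
          simp only [if_true, Bool.not_true, Bool.false_eq_true, if_false, List.map_cons, List.sum_cons, add_smul]
          rw [show termMat 27 t y = y.2.2.2 • termMat 27 t (x.1, x.2.1, x.2.2.1, 1) by
            ext a b
            simp [termMat, h1, h2, h3, zsmul_eq_mul]]
          abel
    rw [evalT_cons, e T, evalT_zeroK t n _ hn, add_zero,
      show termMat 27 t x = x.2.2.2 • termMat 27 t (x.1, x.2.1, x.2.2.1, 1) by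
        ext a b
        simp [termMat, zsmul_eq_mul],
      ← add_smul, hs, zero_smul]

/-- The checked identity for one root and one basis vector. -/
def adjOK (r b : ℕ) : Bool :=
  zeroK 80 (conjT r b ++
    scaleT 0 (-1) ((colTerms chevE6 r b).flatMap fun q => scaleT q.2.1 q.2.2 (bTerms q.1))) &&
  (colTerms chevE6 r b).all fun q => decide (q.1 < 78)

end Cfsg.Agent.E6Cubic
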