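import Cfsg.Agent.E6Cubic.AdjCheck0
import Cfsg.Agent.E6Cubic.AdjCheck1
import Cfsg.Agent.E6Cubic.AdjCheck2
import Cfsg.Agent.ChevSmall.Tools
import Cfsg.Agent.ChevGrp.PerfectData
import Cfsg.Agent.ChevGrp.Bridge
import Cfsg.Agent.Chev.Rules

/-!
# The root elements in 27 coordinates act on the Lie algebra as the Chevalley group (owner: helper33)
-/

set_option autoImplicit false

namespace Cfsg.Agent.E6Cubic

open Cfsg.Lie Cfsg.Agent.ChevTw

variable {F : Type*} [Field F]

variable (F) in
/-- The group of the root elements. -/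
def G27 : Subgroup (GL (Fin 27) F) := Subgroup.closure {g | ∃ r < 72, ∃ t : F, g = x27 r t}

theorem x27_mem_G27 {r : ℕ} (hr : r < 72) (t : F) : x27 r t ∈ G27 F :=
  Subgroup.subset_closure ⟨r, hr, t, rfl⟩

theorem adj_check : ((List.range 72).all fun r => (List.range 78).all fun b => adjOK r b) = true := by
  rw [List.all_eq_true]
  intro r hr
  rw [List.mem_range] at hr
  by_cases h0 : r < 24
  · exact adj_check0 r (Nat.zero_le r) h0
  by_cases h1 : r < 48
  · exact adj_check1 r (by omega) h1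
  exact adj_check2 r (by omega) hr

theorem negE6_ok : ∀ r < chevE6.nroots, chevE6.negIdx.getD r 0 < chevE6.nroots ∧ chevE6.negIdx.getD r 0 ≠ r := by
  decide +kernel

theorem evalT_flatMap_scale (t : F) (L : List (ℕ × ℕ × ℤ)) :
    evalT 27 t (L.flatMap fun q => scaleT q.2.1 q.2.2 (bTerms q.1)) =
      (L.map fun q => ((q.2.2 : F) * t ^ q.2.1) • evalT 27 1 (bTerms q.1)).sum := by
  induction L with
  | nil => rfl
  | cons q L ih =>
    rw [List.flatMap_cons, evalT_append, ih, List.map_cons, List.sum_cons, evalT_scale,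
      evalT_congr_deg0 t 1 (bTerms_deg0 _)]

variable (F) in
/-- The basis of the Lie algebra. -/
def bMat (b : chevE6.Idx) : Matrix (Fin 27) (Fin 27) F := evalT 27 1 (bTerms (idxEquiv chevE6 b).val)

theorem sum_hit (L : List (ℕ × F)) (h : ∀ q ∈ L, q.1 < 78) :
    ∑ a : chevE6.Idx, (L.map fun q => hit (idxEquiv chevE6 a).val q.1 q.2).sum • bMat F a =
      (L.map fun q => q.2 • evalT 27 (1 : F) (bTerms q.1)).sum := by
  induction L with
  | nil => simp
  | cons q L ih =>
    simp only [List.map_cons, List.sum_cons, add_smul, Finset.sum_add_distrib,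
      ih fun x hx => h x (List.mem_cons_of_mem _ hx)]
    congr 1
    set a0 := (idxEquiv chevE6).symm ⟨q.1, h q List.mem_cons_self⟩
    rw [Finset.sum_eq_single a0]
    · simp [hit, bMat, a0]
    · intro a _ ha
      rw [hit, if_neg, zero_smul]
      intro e
      exact ha (by simp [a0, ← e])
    · simp

theorem conj_x27 {r : ℕ} (hr : r < 72) (t : F) (b : chevE6.Idx) :
    (x27 r t : Matrix (Fin 27) (Fin 27) F) * bMat F b =
      (∑ a : chevE6.Idx, chevE6.x F r t a b • bMat F a) * (x27 r t : Matrix (Fin 27) (Fin 27) F) := by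
  have h := List.all_eq_true.1 (List.all_eq_true.1 adj_check r (List.mem_range.2 hr))
    (idxEquiv chevE6 b).val (List.mem_range.2 (idxEquiv chevE6 b).isLt)
  simp only [adjOK, Bool.and_eq_true, List.all_eq_true, decide_eq_true_eq] at h
  have e := evalT_zeroK (F := F) t _ _ h.1
  rw [conjT, evalT_append, evalT_append, evalT_append, evalT_append, evalT_scale, evalT_scale, evalT_scale,
    evalT_scale, evalT_mul 27 t _ _ (rootTerms_lt _), evalT_mul 27 t _ _ (bTerms_lt _),
    evalT_mul 27 t _ _ (rootTerms_lt _), evalT_mul 27 t _ _ (bTerms_lt _), evalT_flatMap_scale,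
    evalT_congr_deg0 t 1 (bTerms_deg0 _), evalT_congr_deg0 t 1 (T := rootTerms r) (fun x hx => by
      obtain ⟨y, -, rfl⟩ := List.mem_map.1 hx; rfl), ← eMat] at e
  simp only [Int.cast_one, Int.cast_neg, pow_zero, pow_one, mul_one, one_mul, neg_mul, neg_smul, one_smul] at e
  rw [← sub_eq_add_neg, sub_eq_zero] at e
  have hx : ∀ a : chevE6.Idx, chevE6.x F r t a b = ((colTerms chevE6 r (idxEquiv chevE6 b).val).map
      fun q => hit (idxEquiv chevE6 a).val q.1 ((q.2.2 : F) * t ^ q.2.1)).sum := by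
    intro a
    have e1 := congrFun (congrFun (evalT_xTerms (F := F) chevE6 r hr (negE6_ok r hr) t) (idxEquiv chevE6 a))
      (idxEquiv chevE6 b)
    rw [xTerms, evalT_cols, if_pos (idxEquiv chevE6 b).isLt] at e1
    rw [e1]
    simp
  have e2 : ∑ a : chevE6.Idx, chevE6.x F r t a b • bMat F a =
      ((colTerms chevE6 r (idxEquiv chevE6 b).val).map
        fun q => ((q.2.2 : F) * t ^ q.2.1) • evalT 27 1 (bTerms q.1)).sum := by
    have := sum_hit (F := F) ((colTerms chevE6 r (idxEquiv chevE6 b).val).map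
      fun q => (q.1, (q.2.2 : F) * t ^ q.2.1)) (by
        intro q hq
        obtain ⟨y, hy, rfl⟩ := List.mem_map.1 hq
        exact h.2 y hy)
    simpa [hx, List.map_map, Function.comp_def] using this
  rw [e2, ← e]
  have e3 : evalT 27 (1 : F) (bTerms (idxEquiv chevE6 b).val) +
      t • (eMat F r * evalT 27 1 (bTerms (idxEquiv chevE6 b).val)) +
      -(t • (evalT 27 (1 : F) (bTerms (idxEquiv chevE6 b).val) * eMat F r)) +
      -(t ^ 2 • (eMat F r * (evalT 27 (1 : F) (bTerms (idxEquiv chevE6 b).val) * eMat F r))) =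
      (1 + t • eMat F r) * (evalT 27 (1 : F) (bTerms (idxEquiv chevE6 b).val) * (1 + (-t) • eMat F r)) := by
    simp only [add_mul, mul_add, one_mul, mul_one, smul_mul_assoc, mul_smul_comm, neg_smul, mul_neg, smul_neg,
      smul_smul, pow_two]
    module
  rw [e3]
  have hinv : (1 + (-t) • eMat F r) * (1 + t • eMat F r) = 1 := (x27 r t).inv_val
  rw [val_x27, mul_assoc, mul_assoc, hinv, mul_one]
  rfl

/-- Coordinates on the Lie algebra. -/
def coord (a : ℕ) : List (Fin 27 × Fin 27 × ℤ) := coordList.getD a []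

/-- The integral coordinate of a basis vector. -/
def coordVal (a b : ℕ) : ℤ :=
  ((coord a).map fun x => x.2.2 *
    (((bTerms b).filter fun y => decide (y.1 = x.1.val) && decide (y.2.1 = x.2.1.val)).map fun y => y.2.2.2).sum).sum

theorem coord_check : ∀ a < 78, ∀ b < 78, coordVal a b = if a = b then 1 else 0 := by decide +kernel

theorem evalT_entry {T : List Term} (h : ∀ x ∈ T, x.2.2.1 = 0) (i j : Fin 27) :
    evalT 27 (1 : F) T i j =
      (((T.filter fun y => decide (y.1 = i.val) && decide (y.2.1 = j.val)).map fun y => y.2.2.2).sum : ℤ) := by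
  induction T with
  | nil => simp [evalT_nil]
  | cons x T ih =>
    rw [evalT_cons, Matrix.add_apply, ih fun y hy => h y (List.mem_cons_of_mem _ hy), List.filter_cons]
    simp only [termMat, Matrix.of_apply, h x List.mem_cons_self, pow_zero, mul_one]
    have hi : (i.val = x.1) = (x.1 = i.val) := propext eq_comm
    have hj : (j.val = x.2.1) = (x.2.1 = j.val) := propext eq_comm
    by_cases e : x.1 = i.val <;> by_cases e' : x.2.1 = j.val <;> simp [e, e', hi, hj]

theorem bMat_indep (c : chevE6.Idx → F) (h : ∑ b, c b • bMat F b = 0) : c = 0 := by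
  funext a
  have e := congrArg (fun M : Matrix (Fin 27) (Fin 27) F =>
    (((coord (idxEquiv chevE6 a).val).map fun x => (x.2.2 : F) * M x.1 x.2.1)).sum) h
  have hL : ∀ L : List (Fin 27 × Fin 27 × ℤ),
      (L.map fun x => (x.2.2 : F) * (∑ b, c b • bMat F b) x.1 x.2.1).sum =
        ∑ b, c b * (L.map fun x => (x.2.2 : F) * bMat F b x.1 x.2.1).sum := by
    intro L
    induction L with
    | nil => simp
    | cons x L ih =>
      rw [List.map_cons, List.sum_cons, ih, Matrix.sum_apply, Finset.mul_sum, ← Finset.sum_add_distrib]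
      refine Finset.sum_congr rfl fun b _ => ?_
      simp only [List.map_cons, List.sum_cons, Matrix.smul_apply, smul_eq_mul]
      ring
  simp only [hL, Matrix.zero_apply, mul_zero, List.map_const', List.sum_replicate, smul_zero] at e
  have hv : ∀ b : chevE6.Idx, ((coord (idxEquiv chevE6 a).val).map fun x => (x.2.2 : F) * bMat F b x.1 x.2.1).sum =
      (coordVal (idxEquiv chevE6 a).val (idxEquiv chevE6 b).val : F) := by
    intro b
    simp only [bMat, evalT_entry (bTerms_deg0 _), coordVal]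
    induction coord (idxEquiv chevE6 a).val with
    | nil => simp
    | cons x L ih => simp only [List.map_cons, List.sum_cons, ih]; push_cast; ring
  simp only [hv, coord_check _ (idxEquiv chevE6 a).isLt _ (idxEquiv chevE6 _).isLt] at e
  rw [Finset.sum_eq_single a] at e
  · simpa using e
  · intro b _ hb
    have : (idxEquiv chevE6 a).val ≠ (idxEquiv chevE6 b).val := fun e' =>
      hb ((idxEquiv chevE6).injective (Fin.ext e')).symm
    simp [this]
  · simp

/-- The relation between an element and its action on the Lie algebra. -/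
def Rel (g : ↥(G27 F)) (σ : GL chevE6.Idx F) : Prop :=
  ∀ b, (g.1 : Matrix (Fin 27) (Fin 27) F) * bMat F b =
    (∑ a : chevE6.Idx, (σ : Matrix chevE6.Idx chevE6.Idx F) a b • bMat F a) * (g.1 : Matrix (Fin 27) (Fin 27) F)

theorem rules_E6 (F : Type*) [Field F] : ChevGrp.Rules chevE6 F := Cfsg.Agent.Chev.rules_of_mem F (by simp)

theorem exists_adjoint : ∃ φ : ↥(G27 F) →* GL chevE6.Idx F, ∀ g, Rel g (φ g) := by
  refine Cfsg.Agent.ChevSmall.exists_hom_of_rel Rel ?_ ?_ ?_ ?_
    (T := {g : ↥(G27 F) | (g : GL (Fin 27) F) ∈ {g | ∃ r < 72, ∃ t : F, g = x27 r t}})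
    Subgroup.closure_closure_coe_preimage ?_
  · intro b
    simp [Matrix.one_apply, Finset.sum_ite_eq', ite_smul]
  · intro g g' σ σ' h h' b
    simp only [Subgroup.coe_mul, Units.val_mul]
    rw [mul_assoc, h' b, ← mul_assoc, Finset.mul_sum]
    simp only [mul_smul_comm, h _, ← smul_mul_assoc, ← Finset.sum_mul, Finset.smul_sum, smul_smul]
    rw [Finset.sum_comm]
    simp only [Matrix.mul_apply, Finset.sum_smul, mul_comm ((σ' : Matrix chevE6.Idx chevE6.Idx F) _ b)]
    rw [mul_assoc]
  · intro g σ h b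
    have e : (g.1 : Matrix (Fin 27) (Fin 27) F) *
        (∑ a : chevE6.Idx, ((σ⁻¹ : GL chevE6.Idx F) : Matrix chevE6.Idx chevE6.Idx F) a b • bMat F a) =
        bMat F b * (g.1 : Matrix (Fin 27) (Fin 27) F) := by
      rw [Finset.mul_sum]
      simp only [mul_smul_comm, h _, ← smul_mul_assoc, ← Finset.sum_mul, Finset.smul_sum, smul_smul]
      rw [Finset.sum_comm]
      have e1 : ∀ c : chevE6.Idx, ∑ a : chevE6.Idx, ((σ⁻¹ : GL chevE6.Idx F) : Matrix chevE6.Idx chevE6.Idx F) a b *
          (σ : Matrix chevE6.Idx chevE6.Idx F) c a = if c = b then 1 else 0 := fun c => by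
        rw [← Matrix.one_apply, ← σ.mul_inv, Matrix.mul_apply]
        exact Finset.sum_congr rfl fun a _ => mul_comm _ _
      simp only [← Finset.sum_smul, e1, ite_smul, one_smul, zero_smul, Finset.sum_ite_eq', Finset.mem_univ, if_true]
    rw [Subgroup.coe_inv]
    have e2 := congrArg (fun M => ((g.1⁻¹ : GL (Fin 27) F) : Matrix (Fin 27) (Fin 27) F) * M *
      ((g.1⁻¹ : GL (Fin 27) F) : Matrix (Fin 27) (Fin 27) F)) e
    simp only [← mul_assoc, Units.inv_mul, one_mul] at e2
    rw [mul_assoc _ (g.1 : Matrix (Fin 27) (Fin 27) F), Units.mul_inv, mul_one] at e2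
    exact e2.symm
  · intro g σ σ' h h'
    refine Units.ext (Matrix.ext fun a b => ?_)
    have e : ∑ c : chevE6.Idx, ((σ : Matrix chevE6.Idx chevE6.Idx F) c b -
        (σ' : Matrix chevE6.Idx chevE6.Idx F) c b) • bMat F c = 0 := by
      simp only [sub_smul, Finset.sum_sub_distrib, sub_eq_zero]
      exact g.1.isUnit.mul_left_injective ((h b).symm.trans (h' b))
    exact sub_eq_zero.1 (congrFun (bMat_indep _ e) a)
  · rintro ⟨g, hg⟩ ⟨r, hr, t, rfl⟩
    refine ⟨ChevGrp.xGL chevE6 F r t, fun b => ?_⟩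
    rw [ChevGrp.val_xGL (rules_E6 F)]
    exact conj_x27 hr t b

variable (F) in
/-- The adjoint action. -/
noncomputable def adj : ↥(G27 F) →* GL chevE6.Idx F := exists_adjoint.choose

theorem adj_rel (g : ↥(G27 F)) : Rel g (adj F g) := exists_adjoint.choose_spec g

theorem adj_x27 {r : ℕ} (hr : r < 72) (t : F) :
    adj F ⟨x27 r t, x27_mem_G27 hr t⟩ = ChevGrp.xGL chevE6 F r t := by
  refine Units.ext (Matrix.ext fun a b => ?_)
  have h1 := adj_rel ⟨x27 r t, x27_mem_G27 hr t⟩ b
  have h2 := conj_x27 hr t b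
  rw [← ChevGrp.val_xGL (rules_E6 F) r t] at h2
  have e : ∑ c : chevE6.Idx, ((adj F ⟨x27 r t, x27_mem_G27 hr t⟩ : Matrix chevE6.Idx chevE6.Idx F) c b -
      (ChevGrp.xGL chevE6 F r t : Matrix chevE6.Idx chevE6.Idx F) c b) • bMat F c = 0 := by
    simp only [sub_smul, Finset.sum_sub_distrib, sub_eq_zero]
    exact (x27 r t).isUnit.mul_left_injective (h1.symm.trans h2)
  exact sub_eq_zero.1 (congrFun (bMat_indep _ e) a)

theorem adj_range : (adj F).range = chevE6.group F := by
  rw [ChevGrp.group_eq (rules_E6 F), ChevGrp.Sys.Gbar, MonoidHom.range_eq_map,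
    show (⊤ : Subgroup ↥(G27 F)) = Subgroup.closure (Subtype.val ⁻¹' {g | ∃ r < 72, ∃ t : F, g = x27 r t}) from
      Subgroup.closure_closure_coe_preimage.symm, MonoidHom.map_closure]
  congr 1
  ext g
  constructor
  · rintro ⟨⟨_, _⟩, ⟨r, hr, t, rfl⟩, rfl⟩
    exact ⟨r, hr, t, adj_x27 hr t⟩
  · rintro ⟨r, hr, t, rfl⟩
    exact ⟨⟨x27 r t, x27_mem_G27 hr t⟩, ⟨r, hr, t, rfl⟩, adj_x27 hr t⟩

theorem center_group (F : Type*) [Field F] [Fintype F] : Subgroup.center ↥(chevE6.group F) = ⊥ := by
  obtain ⟨hs, hc⟩ := ChevGrp.thm_simple (rules_E6 F) (ChevGrp.perfectData_E6 F)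
  rcases hs.eq_bot_or_eq_top_of_normal (Subgroup.center ↥(chevE6.group F)) inferInstance with h | h
  · exact h
  · exact absurd ⟨⟨fun a b => (Subgroup.mem_center_iff.1 (h ▸ Subgroup.mem_top b) a)⟩⟩ hc

theorem eMat_eq_bMat {r : ℕ} (hr : r < 72) : eMat F r = bMat F ((idxEquiv chevE6).symm ⟨6 + r, by
    show 6 + r < 6 + 72
    omega⟩) := by
  simp only [bMat, Equiv.apply_symm_apply]
  rw [eMat, bTerms, if_neg (by omega), Nat.add_sub_cancel_left]

theorem adj_ker [Fintype F] : (adj F).ker = Subgroup.center ↥(G27 F) := by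
  refine le_antisymm (fun g hg => ?_) (fun z hz => ?_)
  · rw [Subgroup.mem_center_iff]
    have hcomm : ∀ r < 72, ∀ t : F, x27 r t * g.1 = g.1 * x27 r t := by
      intro r hr t
      refine Units.ext ?_
      have h := adj_rel g ((idxEquiv chevE6).symm ⟨6 + r, by show 6 + r < 6 + 72; omega⟩)
      rw [MonoidHom.mem_ker.1 hg] at h
      simp only [Units.val_one, Matrix.one_apply, ite_smul, one_smul, zero_smul, Finset.sum_ite_eq',
        Finset.mem_univ, if_true, ← eMat_eq_bMat hr] at h
      rw [Units.val_mul, Units.val_mul, val_x27, add_mul, mul_add, one_mul, mul_one, smul_mul_assoc,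
        mul_smul_comm, h]
    have hle : G27 F ≤ Subgroup.centralizer {g.1} := by
      show Subgroup.closure _ ≤ _
      rw [Subgroup.closure_le]
      rintro _ ⟨r, hr, t, rfl⟩
      rw [SetLike.mem_coe, Subgroup.mem_centralizer_singleton_iff]
      exact hcomm r hr t
    intro h
    exact Subtype.ext (Subgroup.mem_centralizer_singleton_iff.1 (hle h.2))
  · have hr : adj F z ∈ chevE6.group F := adj_range (F := F) ▸ ⟨z, rfl⟩
    have hc : (⟨adj F z, hr⟩ : ↥(chevE6.group F)) ∈ Subgroup.center ↥(chevE6.group F) := by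
      rw [Subgroup.mem_center_iff]
      rintro ⟨y, hy⟩
      rw [← adj_range] at hy
      obtain ⟨w, rfl⟩ := hy
      refine Subtype.ext ?_
      simp only [Subgroup.coe_mul, ← map_mul, Subgroup.mem_center_iff.1 hz w]
    rw [center_group, Subgroup.mem_bot] at hc
    exact MonoidHom.mem_ker.2 (congrArg Subtype.val hc)

end Cfsg.Agent.E6Cubic
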