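import Cfsg.Agent.E6Cubic.Data
import Cfsg.Agent.ChevTw.Sparse
import Cfsg.Prelude.Def_E6

/-!
# The cubic form in 27 numbered coordinates and its root elements (owner: helper33)
-/

set_option autoImplicit false

namespace Cfsg.Agent.E6Cubic

open Cfsg.Lie Cfsg.Agent.ChevTw
open scoped Matrix

/-- A monomial with a coefficient. -/
abbrev Mono : Type := Fin 27 × Fin 27 × Fin 27 × ℤ

variable {F : Type*} [Field F]

/-- The value of a list of cubic terms. -/
def value (P : List Mono) (v : Fin 27 → F) : F :=
  (P.map fun m => (m.2.2.2 : F) * v m.1 * v m.2.1 * v m.2.2.1).sum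

/-- The value of a list of terms at three vectors. -/
def value3 (P : List Mono) (u v w : Fin 27 → F) : F :=
  (P.map fun m => (m.2.2.2 : F) * u m.1 * v m.2.1 * w m.2.2.1).sum

/-- The cyclic arrangements of a monomial. -/
def cyc (m : Mono) : List Mono :=
  [(m.1, m.2.1, m.2.2.1, m.2.2.2), (m.2.1, m.2.2.1, m.1, m.2.2.2), (m.2.2.1, m.1, m.2.1, m.2.2.2)]

/-- All the arrangements of a monomial. -/
def perms (m : Mono) : List Mono :=
  cyc m ++ [(m.2.1, m.1, m.2.2.1, m.2.2.2), (m.1, m.2.2.1, m.2.1, m.2.2.2), (m.2.2.1, m.2.1, m.1, m.2.2.2)]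

/-- The arranged monomials for the first derivative. -/
def mon3 : List Mono := monList.flatMap cyc

/-- The arranged monomials for the polar form. -/
def mon6 : List Mono := monList.flatMap perms

/-- The cubic form. -/
def cub (v : Fin 27 → F) : F := value monList v

/-- The polar form. -/
def pol (u v w : Fin 27 → F) : F := value3 mon6 u v w

/-- The first derivative. -/
def der (v w : Fin 27 → F) : F := value3 mon3 v v w

theorem pol_eq (u v w : Fin 27 → F) :
    pol u v w = cub (u + v + w) - cub (u + v) - cub (u + w) - cub (v + w) + cub u + cub v + cub w := by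
  simp only [pol, cub, mon6]
  induction monList with
  | nil => simp [value, value3]
  | cons m L ih =>
    simp only [value, value3] at ih
    simp only [value, value3, List.flatMap_cons, List.map_cons, List.sum_cons, List.map_append, List.sum_append,
      perms, cyc, List.map_nil, List.sum_nil, Pi.add_apply] at ih ⊢
    rw [ih]
    ring

theorem cub_add_smul (v w : Fin 27 → F) (t : F) :
    cub (v + t • w) = cub v + t * der v w + t ^ 2 * der w v + t ^ 3 * cub w := by
  simp only [cub, der, mon3]
  induction monList with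
  | nil => simp [value, value3]
  | cons m L ih =>
    simp only [value, value3, List.flatMap_cons, List.map_cons, List.sum_cons, List.map_append, List.sum_append,
      cyc, List.map_nil, List.sum_nil, Pi.add_apply, Pi.smul_apply, smul_eq_mul] at ih ⊢
    rw [ih]
    ring

variable (F) in
/-- The isometries of the cubic form. -/
def Isom : Subgroup (GL (Fin 27) F) := funStab F cub

theorem mem_Isom {g : GL (Fin 27) F} :
    g ∈ Isom F ↔ ∀ v : Fin 27 → F, cub ((g : Matrix (Fin 27) (Fin 27) F) *ᵥ v) = cub v := Iff.rfl

theorem pol_Isom {g : GL (Fin 27) F} (hg : g ∈ Isom F) (u v w : Fin 27 → F) :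
    pol ((g : Matrix (Fin 27) (Fin 27) F) *ᵥ u) ((g : Matrix (Fin 27) (Fin 27) F) *ᵥ v)
      ((g : Matrix (Fin 27) (Fin 27) F) *ᵥ w) = pol u v w := by
  simp only [pol_eq, ← Matrix.mulVec_add, mem_Isom.1 hg]

theorem exists_scalar [Fintype F] (hF : 3 ≤ Fintype.card F) : ∃ s : F, s ≠ 0 ∧ s ≠ 1 := by
  classical
  by_contra hcon
  push Not at hcon
  have h : Fintype.card F ≤ 2 := by
    refine le_trans (Finset.card_le_card (t := ({0, 1} : Finset F)) fun x _ => ?_) Finset.card_le_two
    by_cases hx : x = 0 <;> simp [hx, hcon x]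
  omega

theorem der_Isom {s : F} (hs : s ≠ 0 ∧ s ≠ 1) {g : GL (Fin 27) F} (hg : g ∈ Isom F) (v w : Fin 27 → F) :
    der ((g : Matrix (Fin 27) (Fin 27) F) *ᵥ v) ((g : Matrix (Fin 27) (Fin 27) F) *ᵥ w) = der v w := by
  have h : ∀ t : F, cub ((g : Matrix (Fin 27) (Fin 27) F) *ᵥ v + t • ((g : Matrix (Fin 27) (Fin 27) F) *ᵥ w)) =
      cub (v + t • w) := fun t => by
    rw [← Matrix.mulVec_smul, ← Matrix.mulVec_add, mem_Isom.1 hg]
  have h1 := h 1
  have h2 := h s
  simp only [cub_add_smul, mem_Isom.1 hg] at h1 h2
  set X := der ((g : Matrix (Fin 27) (Fin 27) F) *ᵥ v) ((g : Matrix (Fin 27) (Fin 27) F) *ᵥ w)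
  set Y := der ((g : Matrix (Fin 27) (Fin 27) F) *ᵥ w) ((g : Matrix (Fin 27) (Fin 27) F) *ᵥ v)
  have h3 : (s - s ^ 2) * (X - der v w) = 0 := by linear_combination h2 - s ^ 2 * h1
  have h4 : s - s ^ 2 ≠ 0 := by
    rw [show s - s ^ 2 = s * (1 - s) by ring]
    exact mul_ne_zero hs.1 (sub_ne_zero.2 (Ne.symm hs.2))
  exact sub_eq_zero.1 ((mul_eq_zero.1 h3).resolve_left h4)

/-- The entries of a root vector. -/
def ent (r : ℕ) : List (Fin 27 × Fin 27 × ℤ) := rootList.getD r []

theorem ent_cases (r : ℕ) : ent r = [] ∨ r ∈ List.range 72 := by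
  by_cases h : r < 72
  · exact Or.inr (List.mem_range.2 h)
  · left
    rw [ent, List.getD_eq_default]
    have : rootList.length = 72 := by decide +kernel
    omega

/-- The entries as terms. -/
def rootTerms (r : ℕ) : List Term := (ent r).map fun x => (x.1.val, x.2.1.val, 0, x.2.2)

variable (F) in
/-- The matrix of a root vector. -/
def eMat (r : ℕ) : Matrix (Fin 27) (Fin 27) F := evalT 27 (1 : F) (rootTerms r)

theorem eMat_mulVec (r : ℕ) (v : Fin 27 → F) (a : Fin 27) :
    (eMat F r *ᵥ v) a = (((ent r).filter fun x => decide (x.1 = a)).map fun x => (x.2.2 : F) * v x.2.1).sum := by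
  simp only [eMat, rootTerms]
  induction ent r with
  | nil => simp [evalT_nil]
  | cons x L ih =>
    rw [List.map_cons, evalT_cons, Matrix.add_mulVec, Pi.add_apply, ih, List.filter_cons]
    have e : (termMat 27 (1 : F) (x.1.val, x.2.1.val, 0, x.2.2) *ᵥ v) a = if x.1 = a then (x.2.2 : F) * v x.2.1 else 0 := by
      rw [Matrix.mulVec, dotProduct, Finset.sum_eq_single x.2.1]
      · by_cases h : x.1 = a
        · subst h; simp [termMat]
        · have : ¬ (a : ℕ) = (x.1 : ℕ) := fun e => h (Fin.ext e.symm)
          simp [termMat, h, this]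
      · intro b _ hb
        have : ¬ (b : ℕ) = (x.2.1 : ℕ) := fun e => hb (Fin.ext e)
        simp [termMat, this]
      · simp
    rw [e]
    by_cases h : x.1 = a <;> simp [h]

/-- Substitution of a root vector in the first place. -/
def sub1 (r : ℕ) (P : List Mono) : List Mono :=
  P.flatMap fun m => ((ent r).filter fun x => decide (x.1 = m.1)).map fun x =>
    (x.2.1, m.2.1, m.2.2.1, m.2.2.2 * x.2.2)

/-- Substitution in the second place. -/
def sub2 (r : ℕ) (P : List Mono) : List Mono :=
  P.flatMap fun m => ((ent r).filter fun x => decide (x.1 = m.2.1)).map fun x =>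
    (m.1, x.2.1, m.2.2.1, m.2.2.2 * x.2.2)

/-- Substitution in the third place. -/
def sub3 (r : ℕ) (P : List Mono) : List Mono :=
  P.flatMap fun m => ((ent r).filter fun x => decide (x.1 = m.2.2.1)).map fun x =>
    (m.1, m.2.1, x.2.1, m.2.2.2 * x.2.2)

theorem value3_sub1 (r : ℕ) (P : List Mono) (u v w : Fin 27 → F) :
    value3 (sub1 r P) u v w = value3 P (eMat F r *ᵥ u) v w := by
  induction P with
  | nil => simp [value3, sub1]
  | cons m P ih =>
    simp only [value3, sub1, List.flatMap_cons, List.map_append, List.sum_append, List.map_map] at ih ⊢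
    rw [ih, List.map_cons, List.sum_cons, eMat_mulVec]
    congr 1
    induction (ent r).filter (fun x => decide (x.1 = m.1)) with
    | nil => simp
    | cons x L ihL => simp only [List.map_cons, List.sum_cons, ihL, Function.comp]; push_cast; ring

theorem value3_sub2 (r : ℕ) (P : List Mono) (u v w : Fin 27 → F) :
    value3 (sub2 r P) u v w = value3 P u (eMat F r *ᵥ v) w := by
  induction P with
  | nil => simp [value3, sub2]
  | cons m P ih =>
    simp only [value3, sub2, List.flatMap_cons, List.map_append, List.sum_append, List.map_map] at ih ⊢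
    rw [ih, List.map_cons, List.sum_cons, eMat_mulVec]
    congr 1
    induction (ent r).filter (fun x => decide (x.1 = m.2.1)) with
    | nil => simp
    | cons x L ihL => simp only [List.map_cons, List.sum_cons, ihL, Function.comp]; push_cast; ring

theorem value3_sub3 (r : ℕ) (P : List Mono) (u v w : Fin 27 → F) :
    value3 (sub3 r P) u v w = value3 P u v (eMat F r *ᵥ w) := by
  induction P with
  | nil => simp [value3, sub3]
  | cons m P ih =>
    simp only [value3, sub3, List.flatMap_cons, List.map_append, List.sum_append, List.map_map] at ih ⊢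
    rw [ih, List.map_cons, List.sum_cons, eMat_mulVec]
    congr 1
    induction (ent r).filter (fun x => decide (x.1 = m.2.2.1)) with
    | nil => simp
    | cons x L ihL => simp only [List.map_cons, List.sum_cons, ihL, Function.comp]; push_cast; ring

/-- The sorted key of a term. -/
def key (m : Mono) : ℕ :=
  let a := m.1.val
  let b := m.2.1.val
  let c := m.2.2.1.val
  let lo := min a (min b c)
  let hi := max a (max b c)
  lo * 729 + (a + b + c - lo - hi) * 27 + hi

/-- Does the cubic vanish? -/
def zeroP : ℕ → List Mono → Bool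
  | 0, P => decide (P = [])
  | _ + 1, [] => true
  | n + 1, m :: P =>
    decide ((((m :: P).filter fun x => decide (key x = key m)).map fun x => x.2.2.2).sum = 0) &&
      zeroP n (P.filter fun x => !decide (key x = key m))

theorem mono_of_key {x m : Mono} (h : key x = key m) (v : Fin 27 → F) :
    v x.1 * v x.2.1 * v x.2.2.1 = v m.1 * v m.2.1 * v m.2.2.1 := by
  have hs : ∀ y : Mono, ∀ f : ℕ → F, f (y.1.val) * f y.2.1.val * f y.2.2.1.val =
      f (min y.1.val (min y.2.1.val y.2.2.1.val)) *
      f (y.1.val + y.2.1.val + y.2.2.1.val - min y.1.val (min y.2.1.val y.2.2.1.val) -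
        max y.1.val (max y.2.1.val y.2.2.1.val)) * f (max y.1.val (max y.2.1.val y.2.2.1.val)) := by
    intro y f
    generalize y.1.val = a, y.2.1.val = b, y.2.2.1.val = c
    rcases le_total a b with h1 | h1 <;> rcases le_total b c with h2 | h2 <;> rcases le_total a c with h3 | h3
    · rw [show min a (min b c) = a by omega, show max a (max b c) = c by omega, show a + b + c - a - c = b by omega]
    · rw [show min a (min b c) = a by omega, show max a (max b c) = c by omega, show a + b + c - a - c = b by omega]
    · rw [show min a (min b c) = a by omega, show max a (max b c) = b by omega, show a + b + c - a - b = c by omega]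
      ring
    · rw [show min a (min b c) = c by omega, show max a (max b c) = b by omega, show a + b + c - c - b = a by omega]
      ring
    · rw [show min a (min b c) = b by omega, show max a (max b c) = c by omega, show a + b + c - b - c = a by omega]
      ring
    · rw [show min a (min b c) = b by omega, show max a (max b c) = a by omega, show a + b + c - b - a = c by omega]
      ring
    · rw [show min a (min b c) = c by omega, show max a (max b c) = a by omega, show a + b + c - c - a = b by omega]
      ring
    · rw [show min a (min b c) = c by omega, show max a (max b c) = a by omega, show a + b + c - c - a = b by omega]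
      ring
  let f : ℕ → F := fun i => if hi : i < 27 then v ⟨i, hi⟩ else 0
  have hv : ∀ i : Fin 27, v i = f i.val := fun i => by simp [f]
  rw [hv x.1, hv x.2.1, hv x.2.2.1, hv m.1, hv m.2.1, hv m.2.2.1, hs x f, hs m f]
  have h' := h
  simp only [key] at h'
  have hx1 := x.1.isLt; have hx2 := x.2.1.isLt; have hx3 := x.2.2.1.isLt
  have hm1 := m.1.isLt; have hm2 := m.2.1.isLt; have hm3 := m.2.2.1.isLt
  generalize x.1.val = a, x.2.1.val = b, x.2.2.1.val = c, m.1.val = a', m.2.1.val = b', m.2.2.1.val = c' at *
  have l1 : min a (min b c) = min a' (min b' c') := by omega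
  have l2 : max a (max b c) = max a' (max b' c') := by omega
  have l3 : a + b + c - min a (min b c) - max a (max b c) =
      a' + b' + c' - min a' (min b' c') - max a' (max b' c') := by omega
  rw [l1, l2, show a + b + c - min a' (min b' c') - max a' (max b' c') =
    a' + b' + c' - min a' (min b' c') - max a' (max b' c') by omega]

theorem value_filter (P : List Mono) (p : Mono → Bool) (v : Fin 27 → F) :
    value P v = value (P.filter p) v + value (P.filter fun x => !p x) v := by
  induction P with
  | nil => simp [value]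
  | cons x P ih =>
    simp only [value] at ih ⊢
    rw [List.map_cons, List.sum_cons, ih]
    cases hx : p x <;> simp [List.filter_cons, hx] <;> ring

theorem value_eq_zero : ∀ (n : ℕ) (P : List Mono), zeroP n P = true → ∀ v : Fin 27 → F, value P v = 0
  | 0, P, h, v => by
    rw [of_decide_eq_true h]
    simp [value]
  | n + 1, [], _, v => by simp [value]
  | n + 1, m :: P, h, v => by
    simp only [zeroP, Bool.and_eq_true, decide_eq_true_eq] at h
    rw [value_filter (m :: P) (fun x => decide (key x = key m))]
    have e : ∀ L : List Mono, (∀ x ∈ L, key x = key m) →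
        value L v = ((L.map fun x => x.2.2.2).sum : ℤ) * (v m.1 * v m.2.1 * v m.2.2.1) := by
      intro L hL
      induction L with
      | nil => simp [value]
      | cons x L ih =>
        simp only [value] at ih ⊢
        rw [List.map_cons, List.sum_cons, ih (fun y hy => hL y (List.mem_cons_of_mem _ hy)), List.map_cons,
          List.sum_cons, Int.cast_add, add_mul, ← mono_of_key (hL x List.mem_cons_self) v]
        ring
    rw [e _ (fun x hx => by simpa using (List.mem_filter.1 hx).2), h.1, Int.cast_zero, zero_mul, zero_add,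
      List.filter_cons, if_neg (by simp)]
    exact value_eq_zero n _ h.2 v

/-- Invariance of the form under a root vector. -/
def invOK (r : ℕ) : Bool :=
  zeroP 200 (sub3 r mon3) && zeroP 200 (sub1 r (sub2 r mon3)) && zeroP 200 (sub1 r (sub2 r (sub3 r monList))) &&
    zeroT 0 termKey 16 (mulT (rootTerms r) (rootTerms r))

theorem inv_check : (List.range 72).all invOK = true := by decide +kernel

theorem zeroT_of_zero (p : ℕ) (key : Term → ℕ) : ∀ (n : ℕ) (T : List Term),
    zeroT 0 key n T = true → zeroT p key n T = true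
  | 0, [], _ => rfl
  | 0, x :: T, h => by
    simp only [zeroT, Bool.and_eq_true, decide_eq_true_eq] at h ⊢
    refine ⟨h.1, ?_⟩
    have : ((x :: T).map fun y => y.2.2.2).sum = 0 := by simpa using h.2
    rw [this]
    simp
  | n + 1, [], _ => rfl
  | n + 1, x :: T, h => by
    simp only [zeroT, Bool.and_eq_true] at h ⊢
    exact ⟨zeroT_of_zero p key n _ h.1, zeroT_of_zero p key n _ h.2⟩

theorem evalT_zero (t : F) {T : List Term} (h : zeroT 0 termKey 16 T = true) : evalT 27 t T = 0 := by
  obtain ⟨p, hp⟩ := CharP.exists F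
  exact evalT_of_zeroT 27 p termKey t 16 T (zeroT_of_zero p _ _ _ h)

theorem evalT_eq (t : F) {A B : List Term} (h : eqT 0 A B = true) : evalT 27 t A = evalT 27 t B := by
  obtain ⟨p, hp⟩ := CharP.exists F
  exact evalT_eq_of_eqT 27 p (zeroT_of_zero p _ _ _ h) t

theorem rootTerms_lt (r : ℕ) : ∀ x ∈ rootTerms r, x.2.1 < 27 := fun x hx => by
  obtain ⟨y, -, rfl⟩ := List.mem_map.1 hx
  exact y.2.1.isLt

theorem eMat_sq (r : ℕ) : eMat F r * eMat F r = 0 := by
  rw [eMat, ← evalT_mul 27 1 _ _ (rootTerms_lt r)]
  rcases ent_cases r with h | h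
  · simp [rootTerms, h, mulT, evalT_nil]
  · have := List.all_eq_true.1 inv_check r h
    simp only [invOK, Bool.and_eq_true] at this
    exact evalT_zero 1 this.2

/-- The root element. -/
def x27 (r : ℕ) (t : F) : GL (Fin 27) F :=
  ⟨1 + t • eMat F r, 1 + (-t) • eMat F r,
    by simp [add_mul, mul_add, smul_mul_assoc, mul_smul_comm, eMat_sq],
    by simp [add_mul, mul_add, smul_mul_assoc, mul_smul_comm, eMat_sq]⟩

theorem val_x27 (r : ℕ) (t : F) : (x27 r t : Matrix (Fin 27) (Fin 27) F) = 1 + t • eMat F r := rfl

theorem x27_mulVec (r : ℕ) (t : F) (v : Fin 27 → F) :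
    (x27 r t : Matrix (Fin 27) (Fin 27) F) *ᵥ v = v + t • (eMat F r *ᵥ v) := by
  rw [val_x27, Matrix.add_mulVec, Matrix.one_mulVec, Matrix.smul_mulVec]

theorem x27_mem (r : ℕ) (t : F) : x27 r t ∈ Isom F := by
  rw [mem_Isom]
  intro v
  rw [x27_mulVec, cub_add_smul]
  rcases ent_cases r with h | h
  · have e : eMat F r = 0 := by rw [eMat, rootTerms, h]; rfl
    simp [e, cub, der, value, value3]
  · have hh := List.all_eq_true.1 inv_check r h
    simp only [invOK, Bool.and_eq_true] at hh
    obtain ⟨⟨⟨h1, h2⟩, h3⟩, -⟩ := hh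
    have e1 : der v (eMat F r *ᵥ v) = 0 := by
      rw [der, ← value3_sub3]
      exact value_eq_zero 200 _ h1 v
    have e2 : der (eMat F r *ᵥ v) v = 0 := by
      rw [der, ← value3_sub2, ← value3_sub1]
      exact value_eq_zero 200 _ h2 v
    have e3 : cub (eMat F r *ᵥ v) = 0 := by
      show value3 monList (eMat F r *ᵥ v) (eMat F r *ᵥ v) (eMat F r *ᵥ v) = 0
      rw [← value3_sub3, ← value3_sub2, ← value3_sub1]
      exact value_eq_zero 200 _ h3 v
    rw [e1, e2, e3]
    ring

/-- Numbering of the coordinates. -/
def e27 : I27 ≃ Fin 27 where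
  toFun x := ⟨9 * x.1.val + 3 * x.2.1.val + x.2.2.val, by omega⟩
  invFun a := (⟨a.val / 9, by omega⟩, ⟨a.val / 3 % 3, by omega⟩, ⟨a.val % 3, by omega⟩)
  left_inv := by decide
  right_inv := by decide

theorem cubicT_eq (v : I27 → F) : cubicT v = cub (v ∘ e27.symm) := by
  simp only [cubicT, cub, value, monList, mat3, Matrix.det_fin_three, Matrix.trace, Matrix.diag,
    Matrix.mul_apply, Fin.sum_univ_three, Matrix.of_apply, List.map_cons, List.map_nil, List.sum_cons,
    List.sum_nil, Function.comp]
  simp [e27]
  ring

variable (F) in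
/-- The isometries in the numbered coordinates. -/
noncomputable def univEquiv : ↥(E6univ F) ≃* ↥(Isom F) :=
  (MulEquiv.subgroupMap (Units.mapEquiv (Matrix.reindexAlgEquiv F F e27).toMulEquiv) (E6univ F)).trans
    (MulEquiv.subgroupCongr (by
      ext g
      rw [show ((Units.mapEquiv (Matrix.reindexAlgEquiv F F e27).toMulEquiv : _ →* _)) = (Units.mapEquiv (Matrix.reindexAlgEquiv F F e27).toMulEquiv).toMonoidHom from rfl, Subgroup.mem_map_equiv, mem_Isom]
      show (∀ v, cubicT ((Matrix.reindexAlgEquiv F F e27).symm (g : Matrix (Fin 27) (Fin 27) F) *ᵥ v) = cubicT v) ↔ _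
      rw [Matrix.reindexAlgEquiv_symm]
      constructor
      · intro h w
        have := h (w ∘ e27)
        rw [cubicT_eq, cubicT_eq, Matrix.reindexAlgEquiv_apply, Matrix.reindex_apply,
          Matrix.submatrix_mulVec_equiv] at this
        simpa [Function.comp_assoc] using this
      · intro h v
        rw [cubicT_eq, cubicT_eq, Matrix.reindexAlgEquiv_apply, Matrix.reindex_apply,
          Matrix.submatrix_mulVec_equiv]
        simpa [Function.comp_assoc] using h (v ∘ e27.symm)))

end Cfsg.Agent.E6Cubic
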