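import Cfsg.Agent.E6Cubic.Adjoint

/-!
# Every isometry of the cubic form is a product of root elements (owner: helper33)

An isometry is reduced to the identity along a checked certificate: the image of one weight vector after the
other is moved back by Weyl elements and root elements fixing the earlier ones.
-/

set_option autoImplicit false

namespace Cfsg.Agent.E6Cubic

open Cfsg.Lie Cfsg.Agent.ChevTw
open scoped Matrix

/-- Do two coordinates lie in a monomial? -/
def rel (a b : Fin 27) : Bool := mon6.any fun m => decide (m.1 = a) && decide (m.2.1 = b)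

/-- Is the triple a monomial? -/
def trip (a b c : Fin 27) : Bool :=
  mon6.any fun m => decide (m.1 = a) && decide (m.2.1 = b) && decide (m.2.2.1 = c)

/-- A coordinate forced to vanish. -/
def zeroed (L : List (Fin 27 × Fin 27)) (w j : Fin 27) : Bool :=
  L.any fun p => !rel p.1 w && rel p.2 j

/-- The candidates cover a nonzero coordinate. -/
def covers (L : List (Fin 27 × Fin 27)) (w : Fin 27) (k : Kind) (N : List (Fin 27)) : Bool :=
  match k with
  | .any => (List.finRange 27).all fun j => zeroed L w j || N.contains j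
  | .one a a' => L.contains (a, a') && rel a w &&
      (List.finRange 27).all fun j => !rel a' j || zeroed L w j || N.contains j
  | .two a a' b b' => L.contains (a, a') && L.contains (b, b') && trip a b w &&
      (List.finRange 27).all fun j => !trip a' b' j || zeroed L w j || N.contains j

/-- A root vector killing the fixed vectors. -/
def kills (r : ℕ) (L : List (Fin 27 × Fin 27)) : Bool :=
  L.all fun p => (ent r).all fun x : Fin 27 × Fin 27 × ℤ => !decide (x.2.1 = p.2)

/-- The Weyl element as terms. -/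
def nTerms (r : ℕ) : List Term := mulT (mulT (xT r 1) (xT (chevE6.neg r) (-1))) (xT r 1)

/-- The coefficient sum of an entry. -/
def entrySum (T : List Term) (i j : Fin 27) : ℤ :=
  ((T.filter fun y => decide (y.1 = i.val) && decide (y.2.1 = j.val)).map fun y => y.2.2.2).sum

/-- Row `k'` of a Weyl element has its single entry at `k`. -/
def rowOK (r : ℕ) (k k' : Fin 27) : Bool :=
  (List.finRange 27).all fun b =>
    if b = k then decide ((entrySum (nTerms r) k' b).natAbs = 1) else decide (entrySum (nTerms r) k' b = 0)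

/-- A path moving a candidate to the target. -/
def pathOK (L : List (Fin 27 × Fin 27)) (target : Fin 27) : Fin 27 → List (ℕ × Fin 27) → Bool
  | k, [] => decide (k = target)
  | k, (r, k') :: rest => decide (r < 72) && decide (chevE6.neg r < 72) && kills r L &&
      kills (chevE6.neg r) L && rowOK r k k' && pathOK L target k' rest

/-- The possibly nonzero coordinates at the end of a sweep, other than the target, drop out by singularity. -/
def finalOK (L : List (Fin 27 × Fin 27)) (w t : Fin 27) (K : List (Fin 27)) : Bool :=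
  (List.finRange 27).all fun j => decide (j = t) || zeroed L w j || K.contains j ||
    (List.finRange 27).any fun c =>
      let S := mon3.filter fun m => decide (m.2.2.1 = c) &&
        (decide (m.1 = t) || (!zeroed L w m.1 && !K.contains m.1)) &&
        (decide (m.2.1 = t) || (!zeroed L w m.2.1 && !K.contains m.2.1))
      match S with
      | [m] => decide (m.2.2.2.natAbs = 1) &&
          ((decide (m.1 = t) && decide (m.2.1 = j)) || (decide (m.1 = j) && decide (m.2.1 = t)))
      | _ => false

/-- The sweep clearing the neighbours of the target. -/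
def sweepOK (L : List (Fin 27 × Fin 27)) (w t : Fin 27) : List (Fin 27) → List (ℕ × Fin 27) → Bool
  | K, [] => finalOK L w t K
  | K, (r, j) :: rest => decide (r < 72) && kills r L && !decide (j = t) &&
      decide ((((ent r).filter fun x : Fin 27 × Fin 27 × ℤ => decide (x.1 = j)).map
        fun x : Fin 27 × Fin 27 × ℤ => x.2.2).sum.natAbs = 1) &&
      (ent r).all (fun x : Fin 27 × Fin 27 × ℤ => (!decide (x.1 = j) || decide (x.2.1 = t)) &&
        (!(decide (x.1 = t) || K.contains x.1) || zeroed L w x.2.1 || K.contains x.2.1)) &&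
      sweepOK L w t (j :: K) rest

/-- A branch is valid. -/
def branchOK (L : List (Fin 27 × Fin 27)) (w : Fin 27) (b : Branch) : Bool :=
  b.paths.all (fun p => pathOK L b.target p.1 p.2) && sweepOK L w b.target [] b.sweep

/-- The certificate is valid. -/
def Cert.check : List (Fin 27 × Fin 27) → Cert → Bool
  | L, .done => (List.finRange 27).all fun a => L.contains (a, a)
  | L, .stop w k => covers L w k []
  | L, .step w k b c => covers L w k (b.paths.map Prod.fst) && branchOK L w b && c.check ((w, b.target) :: L)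
  | L, .split w k b₁ c₁ b₂ c₂ => covers L w k (b₁.paths.map Prod.fst ++ b₂.paths.map Prod.fst) &&
      branchOK L w b₁ && branchOK L w b₂ && c₁.check ((w, b₁.target) :: L) && c₂.check ((w, b₂.target) :: L)

set_option maxHeartbeats 0 in
theorem reduce_check : Cert.check [] reduceCert = true := by decide +kernel

theorem mon_facts : (∀ m ∈ mon3, m.1 ≠ m.2.1) ∧ (∀ m ∈ mon6, m.2.2.2.natAbs = 1) := by decide +kernel

theorem pair_unique : ∀ a c : Fin 27,
    (mon6.filter fun m => decide (m.1 = a) && decide (m.2.2.1 = c)).length ≤ 1 := by decide +kernel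

theorem trip_unique : ∀ a b : Fin 27,
    (mon6.filter fun m => decide (m.1 = a) && decide (m.2.1 = b)).length ≤ 1 := by decide +kernel

theorem monList_unit : ∀ m ∈ monList,
    (((mon6.filter fun x : Mono => decide (x.1 = m.1) && decide (x.2.1 = m.2.1) && decide (x.2.2.1 = m.2.2.1)).map
      fun x : Mono => x.2.2.2).sum).natAbs = 1 := by decide +kernel

variable {F : Type*} [Field F]

theorem cast_unit_ne_zero {z : ℤ} (h : z.natAbs = 1) : (z : F) ≠ 0 := by
  rcases Int.natAbs_eq z with e | e <;> rw [e, h] <;> simp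

/-- A coordinate vector. -/
def eV (F : Type*) [Field F] (a : Fin 27) : Fin 27 → F := Pi.single a 1

theorem value3_smul (P : List Mono) (α β γ : F) (u v w : Fin 27 → F) :
    value3 P (α • u) (β • v) (γ • w) = α * β * γ * value3 P u v w := by
  induction P with
  | nil => simp [value3]
  | cons m P ih =>
    simp only [value3, List.map_cons, List.sum_cons, Pi.smul_apply, smul_eq_mul] at ih ⊢
    rw [ih]
    ring

theorem value3_right (P : List Mono) (u v w : Fin 27 → F) :
    value3 P u v w = ∑ c, w c * value3 P u v (eV F c) := by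
  induction P with
  | nil => simp [value3]
  | cons m P ih =>
    simp only [value3, List.map_cons, List.sum_cons] at ih ⊢
    rw [ih]
    simp only [mul_add, Finset.sum_add_distrib]
    congr 1
    rw [Finset.sum_eq_single m.2.2.1 (fun c _ hc => by simp [eV, Pi.single_apply, Ne.symm hc]) (by simp)]
    simp [eV]
    ring

theorem value3_outer (P : List Mono) (a c : Fin 27) (v : Fin 27 → F) :
    value3 P (eV F a) v (eV F c) =
      ((P.filter fun m => decide (m.1 = a) && decide (m.2.2.1 = c)).map fun m => (m.2.2.2 : F) * v m.2.1).sum := by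
  induction P with
  | nil => simp [value3]
  | cons m P ih =>
    simp only [value3, List.map_cons, List.sum_cons] at ih ⊢
    rw [ih, List.filter_cons]
    by_cases h1 : m.1 = a <;> by_cases h2 : m.2.2.1 = c <;> simp [eV, Pi.single_apply, h1, h2]

theorem value3_left (P : List Mono) (a b : Fin 27) (w : Fin 27 → F) :
    value3 P (eV F a) (eV F b) w =
      ((P.filter fun m => decide (m.1 = a) && decide (m.2.1 = b)).map fun m => (m.2.2.2 : F) * w m.2.2.1).sum := by
  induction P with
  | nil => simp [value3]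
  | cons m P ih =>
    simp only [value3, List.map_cons, List.sum_cons] at ih ⊢
    rw [ih, List.filter_cons]
    by_cases h1 : m.1 = a <;> by_cases h2 : m.2.1 = b <;> simp [eV, Pi.single_apply, h1, h2]

theorem value3_der (c : Fin 27) (v : Fin 27 → F) (P : List Mono) :
    value3 P v v (eV F c) =
      ((P.filter fun m => decide (m.2.2.1 = c)).map fun m => (m.2.2.2 : F) * (v m.1 * v m.2.1)).sum := by
  induction P with
  | nil => simp [value3]
  | cons m P ih =>
    simp only [value3, List.map_cons, List.sum_cons] at ih ⊢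
    rw [ih, List.filter_cons]
    by_cases h1 : m.2.2.1 = c <;> simp [eV, Pi.single_apply, h1, mul_assoc]

theorem value3_all (P : List Mono) (a b c : Fin 27) :
    value3 P (eV F a) (eV F b) (eV F c) =
      ((((P.filter fun x => decide (x.1 = a) && decide (x.2.1 = b) && decide (x.2.2.1 = c)).map
        fun x => x.2.2.2).sum : ℤ) : F) := by
  induction P with
  | nil => simp [value3]
  | cons m P ih =>
    simp only [value3, List.map_cons, List.sum_cons] at ih ⊢
    rw [ih, List.filter_cons]
    by_cases h1 : m.1 = a <;> by_cases h2 : m.2.1 = b <;> by_cases h3 : m.2.2.1 = c <;>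
      simp [eV, Pi.single_apply, h1, h2, h3]

theorem list_length_one {α : Type*} {l : List α} (h : l.length ≤ 1) {m : α} (hm : m ∈ l) : l = [m] := by
  match l, h, hm with
  | [x], _, hm => rw [List.mem_singleton.1 hm]

/-- The fixed lines. -/
def Fix (g : GL (Fin 27) F) (L : List (Fin 27 × Fin 27)) : Prop :=
  ∀ p ∈ L, ∃ μ : F, μ ≠ 0 ∧ (g : Matrix (Fin 27) (Fin 27) F) *ᵥ eV F p.1 = μ • eV F p.2

theorem fix_mul {u g : GL (Fin 27) F} {L : List (Fin 27 × Fin 27)} (hg : Fix g L)
    (hu : ∀ p ∈ L, (u : Matrix (Fin 27) (Fin 27) F) *ᵥ eV F p.2 = eV F p.2) : Fix (u * g) L := by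
  intro p hp
  obtain ⟨μ, hμ, e⟩ := hg p hp
  exact ⟨μ, hμ, by rw [Units.val_mul, ← Matrix.mulVec_mulVec, e, Matrix.mulVec_smul, hu p hp]⟩

theorem x27_fix {r : ℕ} {L : List (Fin 27 × Fin 27)} (h : kills r L = true) (t : F) :
    ∀ p ∈ L, (x27 r t : Matrix (Fin 27) (Fin 27) F) *ᵥ eV F p.2 = eV F p.2 := by
  intro p hp
  simp only [kills, List.all_eq_true, Bool.not_eq_true', decide_eq_false_iff_not] at h
  have e : eMat F r *ᵥ eV F p.2 = 0 := by
    funext a
    rw [eMat_mulVec, Pi.zero_apply]
    refine List.sum_eq_zero fun z hz => ?_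
    obtain ⟨x, hx, rfl⟩ := List.mem_map.1 hz
    simp [eV, Pi.single_apply, h p hp x (List.mem_filter.1 hx).1]
  rw [x27_mulVec, e, smul_zero, add_zero]

theorem surj_mulVec (g : GL (Fin 27) F) (y : Fin 27 → F) :
    ∃ x, (g : Matrix (Fin 27) (Fin 27) F) *ᵥ x = y :=
  ⟨((g⁻¹ : GL (Fin 27) F) : Matrix (Fin 27) (Fin 27) F) *ᵥ y, by
    rw [Matrix.mulVec_mulVec, Units.mul_inv, Matrix.one_mulVec]⟩

theorem zeroed_spec {g : GL (Fin 27) F} (hg : g ∈ Isom F) {L : List (Fin 27 × Fin 27)} (hL : Fix g L)
    {w j : Fin 27} (h : zeroed L w j = true) : ((g : Matrix (Fin 27) (Fin 27) F) *ᵥ eV F w) j = 0 := by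
  simp only [zeroed, List.any_eq_true, Bool.and_eq_true, Bool.not_eq_true'] at h
  obtain ⟨p, hp, h1, h2⟩ := h
  obtain ⟨μ, hμ, e⟩ := hL p hp
  set v := (g : Matrix (Fin 27) (Fin 27) F) *ᵥ eV F w with hv
  simp only [rel, List.any_eq_true, Bool.and_eq_true, decide_eq_true_eq] at h2
  obtain ⟨m, hm, hm1, hm2⟩ := h2
  have h0 : ∀ y, pol (eV F p.1) (eV F w) y = 0 := fun y => by
    rw [pol, value3_left, List.filter_eq_nil_iff.2 fun x hx hh => ?_]
    · simp
    · simp only [rel, List.any_eq_false] at h1
      exact h1 x hx hh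
  obtain ⟨x, hx⟩ := surj_mulVec g (eV F m.2.2.1)
  have e1 := pol_Isom hg (eV F p.1) (eV F w) x
  rw [h0, e, hx, ← hv, pol, ← one_smul F v, ← one_smul F (eV F m.2.2.1), value3_smul,
    value3_outer, list_length_one (pair_unique p.2 m.2.2.1) (List.mem_filter.2 ⟨hm, by simp [hm1]⟩)] at e1
  simp only [List.map_cons, List.map_nil, List.sum_cons, List.sum_nil, add_zero, mul_one, hm2] at e1
  exact (mul_eq_zero.1 ((mul_eq_zero.1 e1).resolve_left hμ)).resolve_left (cast_unit_ne_zero (mon_facts.2 m hm))

theorem covers_spec {g : GL (Fin 27) F} (hg : g ∈ Isom F) {L : List (Fin 27 × Fin 27)} (hL : Fix g L)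
    {w : Fin 27} {k : Kind} {N : List (Fin 27)} (h : covers L w k N = true) :
    ∃ j ∈ N, ((g : Matrix (Fin 27) (Fin 27) F) *ᵥ eV F w) j ≠ 0 := by
  set v := (g : Matrix (Fin 27) (Fin 27) F) *ᵥ eV F w with hv
  by_contra hcon
  push Not at hcon
  have hz : ∀ j, zeroed L w j = true ∨ N.contains j = true → v j = 0 := fun j hj =>
    hj.elim (fun h => zeroed_spec hg hL h) fun h => hcon j (by simpa using h)
  match k with
  | .any =>
    simp only [covers, List.all_eq_true, Bool.or_eq_true] at h
    have h0 : v = 0 := funext fun j => hz j (h j (List.mem_finRange j))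
    have := congrArg (fun x => ((g⁻¹ : GL (Fin 27) F) : Matrix (Fin 27) (Fin 27) F) *ᵥ x) h0
    rw [hv] at this
    simp only [Matrix.mulVec_mulVec, Units.inv_mul, Matrix.one_mulVec, Matrix.mulVec_zero] at this
    simpa [eV] using congrFun this w
  | .one a a' =>
    simp only [covers, List.all_eq_true, Bool.and_eq_true, Bool.or_eq_true, Bool.not_eq_true', or_assoc] at h
    obtain ⟨⟨h1, h2⟩, h3⟩ := h
    obtain ⟨μ, hμ, e⟩ := hL (a, a') (by simpa using h1)
    simp only [rel, List.any_eq_true, Bool.and_eq_true, decide_eq_true_eq] at h2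
    obtain ⟨m, hm, hm1, hm2⟩ := h2
    have e1 := pol_Isom hg (eV F a) (eV F w) (eV F m.2.2.1)
    rw [e, ← hv, pol, pol, value3_left, list_length_one (trip_unique a w) (List.mem_filter.2 ⟨hm, by simp [hm1, hm2]⟩),
      ← one_smul F v, ← one_smul F ((g : Matrix (Fin 27) (Fin 27) F) *ᵥ eV F m.2.2.1), value3_smul, value3_right]
      at e1
    rw [Finset.sum_eq_zero fun c _ => ?_] at e1
    · simp only [List.map_cons, List.map_nil, List.sum_cons, List.sum_nil, add_zero, mul_zero, eV,
        Pi.single_eq_same, mul_one] at e1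
      exact cast_unit_ne_zero (mon_facts.2 m hm) e1.symm
    · rw [value3_outer, List.sum_eq_zero fun z hz' => ?_, mul_zero]
      obtain ⟨x, hx, rfl⟩ := List.mem_map.1 hz'
      obtain ⟨hx1, hx2⟩ := List.mem_filter.1 hx
      simp only [Bool.and_eq_true, decide_eq_true_eq] at hx2
      have hr : rel a' x.2.1 = true := by
        simp only [rel, List.any_eq_true, Bool.and_eq_true, decide_eq_true_eq]
        exact ⟨x, hx1, hx2.1, rfl⟩
      rw [hz x.2.1 (by simpa [hr] using h3 x.2.1 (List.mem_finRange _)), mul_zero]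
  | .two a a' b b' =>
    simp only [covers, List.all_eq_true, Bool.and_eq_true, Bool.or_eq_true, Bool.not_eq_true', or_assoc] at h
    obtain ⟨⟨⟨h1, h1'⟩, h2⟩, h3⟩ := h
    obtain ⟨μ, hμ, e⟩ := hL (a, a') (by simpa using h1)
    obtain ⟨ν, hν, e'⟩ := hL (b, b') (by simpa using h1')
    simp only [trip, List.any_eq_true, Bool.and_eq_true, decide_eq_true_eq] at h2
    obtain ⟨m, hm, ⟨hm1, hm2⟩, hm3⟩ := h2
    have e1 := pol_Isom hg (eV F a) (eV F b) (eV F w)
    rw [e, e', ← hv, pol, pol, ← one_smul F v, value3_smul, value3_left, value3_left,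
      list_length_one (trip_unique a b) (List.mem_filter.2 ⟨hm, by simp [hm1, hm2]⟩)] at e1
    rw [List.sum_eq_zero fun z hz' => ?_] at e1
    · simp only [List.map_cons, List.map_nil, List.sum_cons, List.sum_nil, add_zero, mul_zero, eV, hm3,
        Pi.single_eq_same, mul_one] at e1
      exact cast_unit_ne_zero (mon_facts.2 m hm) e1.symm
    · obtain ⟨x, hx, rfl⟩ := List.mem_map.1 hz'
      obtain ⟨hx1, hx2⟩ := List.mem_filter.1 hx
      simp only [Bool.and_eq_true, decide_eq_true_eq] at hx2
      have hr : trip a' b' x.2.2.1 = true := by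
        simp only [trip, List.any_eq_true, Bool.and_eq_true, decide_eq_true_eq]
        exact ⟨x, hx1, hx2, rfl⟩
      rw [hz x.2.2.1 (by simpa [hr] using h3 x.2.2.1 (List.mem_finRange _)), mul_zero]

/-- The Weyl element. -/
def n27 (r : ℕ) : GL (Fin 27) F := x27 r 1 * x27 (chevE6.neg r) (-1) * x27 r 1

theorem val_n27 (r : ℕ) : ((n27 r : GL (Fin 27) F) : Matrix (Fin 27) (Fin 27) F) = evalT 27 (1 : F) (nTerms r) := by
  rw [nTerms, evalT_mul 27 1 _ _ (fun x hx => ?_), evalT_mul 27 1 _ _ (xT_lt _ _), evalT_xT, evalT_xT, n27,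
    Units.val_mul, Units.val_mul, val_x27, val_x27]
  · simp
  · simp only [mulT, List.mem_flatMap, List.mem_map, List.mem_filter] at hx
    obtain ⟨y, -, z, ⟨hz, -⟩, rfl⟩ := hx
    exact xT_lt _ _ z hz

theorem nTerms_deg : ∀ r < 72, (nTerms r).all fun x => decide (x.2.2.1 < 4) := by decide +kernel

theorem evalT_one_entry (T : List Term) (i j : Fin 27) : evalT 27 (1 : F) T i j = (entrySum T i j : F) := by
  rw [entrySum]
  induction T with
  | nil => simp [evalT_nil]
  | cons x T ih =>
    rw [evalT_cons, Matrix.add_apply, ih, List.filter_cons]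
    simp only [termMat, Matrix.of_apply, one_pow, mul_one]
    have hi : (i.val = x.1) = (x.1 = i.val) := propext eq_comm
    have hj : (j.val = x.2.1) = (x.2.1 = j.val) := propext eq_comm
    by_cases e : x.1 = i.val <;> by_cases e' : x.2.1 = j.val <;> simp [e, e', hi, hj]

theorem n27_coord {r : ℕ} {k k' : Fin 27} (h : rowOK r k k' = true) (v : Fin 27 → F) (hk : v k ≠ 0) :
    (((n27 r : GL (Fin 27) F) : Matrix (Fin 27) (Fin 27) F) *ᵥ v) k' ≠ 0 := by
  simp only [rowOK, List.all_eq_true] at h
  rw [Matrix.mulVec, dotProduct, Finset.sum_eq_single k]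
  · have := h k (List.mem_finRange k)
    simp only [if_true, decide_eq_true_eq] at this
    rw [val_n27, evalT_one_entry]
    exact mul_ne_zero (cast_unit_ne_zero this) hk
  · intro b _ hb
    have := h b (List.mem_finRange b)
    simp only [hb, if_false, decide_eq_true_eq] at this
    rw [val_n27, evalT_one_entry, this, Int.cast_zero, zero_mul]
  · simp

theorem path_spec {L : List (Fin 27 × Fin 27)} {w t : Fin 27} :
    ∀ (ks : List (ℕ × Fin 27)) (k : Fin 27) (g : GL (Fin 27) F), g ∈ Isom F → Fix g L →
      pathOK L t k ks = true → ((g : Matrix (Fin 27) (Fin 27) F) *ᵥ eV F w) k ≠ 0 →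
      ∃ u ∈ G27 F, u * g ∈ Isom F ∧ Fix (u * g) L ∧
        (((u * g : GL (Fin 27) F) : Matrix (Fin 27) (Fin 27) F) *ᵥ eV F w) t ≠ 0
  | [], k, g, hg, hL, h, hk => by
    simp only [pathOK, decide_eq_true_eq] at h
    subst h
    exact ⟨1, one_mem _, by simpa using hg, by simpa using hL, by simpa using hk⟩
  | (r, k') :: rest, k, g, hg, hL, h, hk => by
    simp only [pathOK, Bool.and_eq_true, decide_eq_true_eq] at h
    obtain ⟨⟨⟨⟨⟨hr, hr'⟩, h1⟩, h2⟩, h3⟩, h4⟩ := h
    have hn : n27 r ∈ G27 F := mul_mem (mul_mem (x27_mem_G27 hr _) (x27_mem_G27 hr' _)) (x27_mem_G27 hr _)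
    have hnI : (n27 r : GL (Fin 27) F) ∈ Isom F := mul_mem (mul_mem (x27_mem _ _) (x27_mem _ _)) (x27_mem _ _)
    have hnL : Fix (n27 r * g) L := fix_mul hL fun p hp => by
      simp only [n27, Units.val_mul, ← Matrix.mulVec_mulVec, x27_fix h1 (1 : F) p hp, x27_fix h2 (-1 : F) p hp]
    obtain ⟨u, hu, h5, h6, h7⟩ := path_spec rest k' _ (mul_mem hnI hg) hnL h4 (by
      rw [Units.val_mul, ← Matrix.mulVec_mulVec]
      exact n27_coord h3 _ hk)
    exact ⟨u * n27 r, mul_mem hu hn, by rwa [mul_assoc], by rwa [mul_assoc], by rwa [mul_assoc]⟩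

theorem single_of_final {s : F} (hs : s ≠ 0 ∧ s ≠ 1) {g : GL (Fin 27) F} (hg : g ∈ Isom F)
    {L : List (Fin 27 × Fin 27)} (hL : Fix g L) {w t : Fin 27} {K : List (Fin 27)}
    (hK : ∀ j ∈ K, ((g : Matrix (Fin 27) (Fin 27) F) *ᵥ eV F w) j = 0)
    (ht : ((g : Matrix (Fin 27) (Fin 27) F) *ᵥ eV F w) t ≠ 0) (h : finalOK L w t K = true) :
    Fix g ((w, t) :: L) := by
  set v := (g : Matrix (Fin 27) (Fin 27) F) *ᵥ eV F w with hv
  refine List.forall_mem_cons.2 ⟨⟨v t, ht, ?_⟩, hL⟩
  funext j
  rw [← hv, Pi.smul_apply, smul_eq_mul]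
  by_cases hj : j = t
  · simp [hj, eV]
  rw [eV, Pi.single_eq_of_ne hj, mul_zero]
  simp only [finalOK, List.all_eq_true, Bool.or_eq_true, decide_eq_true_eq, hj, false_or] at h
  rcases h j (List.mem_finRange j) with ((h1 | h1) | h1) | h1
  · exact absurd h1 hj
  · exact zeroed_spec hg hL h1
  · exact hK j (by simpa using h1)
  rw [List.any_eq_true] at h1
  obtain ⟨c, -, hc⟩ := h1
  have hzero : ∀ y, y ≠ t → zeroed L w y = true ∨ K.contains y = true → v y = 0 := fun y _ hy =>
    hy.elim (fun h => zeroed_spec hg hL h) fun h => hK y (by simpa using h)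
  obtain ⟨x, hx⟩ := surj_mulVec g (eV F c)
  have e := der_Isom hs hg (eV F w) x
  rw [hx, ← hv] at e
  have e0 : der (eV F w) x = 0 := by
    rw [der, value3]
    refine List.sum_eq_zero fun z hz => ?_
    obtain ⟨m, hm, rfl⟩ := List.mem_map.1 hz
    by_cases h' : m.1 = w
    · simp [eV, Pi.single_apply, show m.2.1 ≠ w from fun e => mon_facts.1 m hm (h'.trans e.symm)]
    · simp [eV, Pi.single_apply, h']
  rw [e0, der, value3_der] at e
  have key : ∀ (P : List Mono), (∀ m ∈ P, m.1 ≠ m.2.1) →
      ((P.filter fun m => decide (m.2.2.1 = c)).map fun m => (m.2.2.2 : F) * (v m.1 * v m.2.1)).sum =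
      ((P.filter fun m => decide (m.2.2.1 = c) &&
        (decide (m.1 = t) || (!zeroed L w m.1 && !K.contains m.1)) &&
        (decide (m.2.1 = t) || (!zeroed L w m.2.1 && !K.contains m.2.1))).map
          fun m => (m.2.2.2 : F) * (v m.1 * v m.2.1)).sum := by
    intro P hP
    induction P with
    | nil => rfl
    | cons m P ih =>
      rw [List.filter_cons, List.filter_cons]
      have ih' := ih fun x hx => hP x (List.mem_cons_of_mem _ hx)
      by_cases hc : m.2.2.1 = c
      · by_cases ha : (decide (m.1 = t) || (!zeroed L w m.1 && !K.contains m.1)) = true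
        · by_cases hb : (decide (m.2.1 = t) || (!zeroed L w m.2.1 && !K.contains m.2.1)) = true
          · simp only [hc, decide_true, ha, hb, Bool.and_self, if_true, List.map_cons, List.sum_cons, ih']
          · rw [Bool.not_eq_true] at hb
            have : v m.2.1 = 0 := by
              simp only [Bool.or_eq_false_iff, decide_eq_false_iff_not, Bool.and_eq_false_iff, Bool.not_eq_false'] at hb
              exact hzero _ hb.1 hb.2
            simp only [hc, decide_true, ha, hb, Bool.and_false, Bool.false_and, Bool.and_true, Bool.true_and,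
              Bool.false_eq_true, if_false, if_true, List.map_cons, List.sum_cons, ih', this, mul_zero, zero_mul,
              zero_add]
        · rw [Bool.not_eq_true] at ha
          have : v m.1 = 0 := by
            simp only [Bool.or_eq_false_iff, decide_eq_false_iff_not, Bool.and_eq_false_iff, Bool.not_eq_false'] at ha
            exact hzero _ ha.1 ha.2
          simp only [hc, decide_true, ha, Bool.and_false, Bool.false_and, Bool.and_true, Bool.true_and,
            Bool.false_eq_true, if_false, if_true, List.map_cons, List.sum_cons, ih', this, mul_zero, zero_mul,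
            zero_add]
      · simp [hc, ih']
  rw [key mon3 mon_facts.1] at e
  revert hc e
  generalize (mon3.filter _) = S
  match S with
  | [] => simp
  | [m] =>
    intro hc e
    simp only [Bool.and_eq_true, Bool.or_eq_true, decide_eq_true_eq] at hc
    simp only [List.map_cons, List.map_nil, List.sum_cons, List.sum_nil, add_zero] at e
    have e2 := (mul_eq_zero.1 e).resolve_left (cast_unit_ne_zero hc.1)
    rcases hc.2 with ⟨ha, hb⟩ | ⟨ha, hb⟩ <;> rw [ha, hb] at e2
    · exact (mul_eq_zero.1 e2).resolve_left ht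
    · exact (mul_eq_zero.1 e2).resolve_right ht
  | _ :: _ :: _ => simp

theorem sweep_spec {s : F} (hs : s ≠ 0 ∧ s ≠ 1) {L : List (Fin 27 × Fin 27)} {w t : Fin 27} :
    ∀ (rs : List (ℕ × Fin 27)) (K : List (Fin 27)) (g : GL (Fin 27) F), g ∈ Isom F → Fix g L →
      sweepOK L w t K rs = true → (∀ j ∈ K, ((g : Matrix (Fin 27) (Fin 27) F) *ᵥ eV F w) j = 0) →
      ((g : Matrix (Fin 27) (Fin 27) F) *ᵥ eV F w) t ≠ 0 →
      ∃ u ∈ G27 F, u * g ∈ Isom F ∧ Fix (u * g) ((w, t) :: L)
  | [], K, g, hg, hL, h, hK, ht' =>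
    ⟨1, one_mem _, by simpa using hg, by simpa using single_of_final hs hg hL hK ht' h⟩
  | (r, j) :: rest, K, g, hg, hL, h, hK, ht' => by
    simp only [sweepOK, Bool.and_eq_true, decide_eq_true_eq, List.all_eq_true, Bool.not_eq_true',
      decide_eq_false_iff_not, Bool.or_eq_true] at h
    obtain ⟨⟨⟨⟨⟨hr, hkill⟩, hjt⟩, hunit⟩, hall⟩, hrest⟩ := h
    set v := (g : Matrix (Fin 27) (Fin 27) F) *ᵥ eV F w with hv
    set c : F := (((((ent r).filter fun x => decide (x.1 = j)).map fun x => x.2.2).sum : ℤ) : F) with hc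
    have hc0 : c ≠ 0 := cast_unit_ne_zero hunit
    set τ : F := -(v j) / (c * v t)
    have hu := x27_mem_G27 hr τ
    have hrow : ∀ i, (i = t ∨ i ∈ K) → (eMat F r *ᵥ v) i = 0 := fun i hi => by
      rw [eMat_mulVec]
      refine List.sum_eq_zero fun z hz => ?_
      obtain ⟨x, hx, rfl⟩ := List.mem_map.1 hz
      obtain ⟨hx1, hx2⟩ := List.mem_filter.1 hx
      obtain rfl := of_decide_eq_true hx2
      have h2 := (hall x hx1).2
      have hv0 : v x.2.1 = 0 := by
        rcases h2 with (h2 | h2) | h2
        · simp only [Bool.or_eq_false_iff, decide_eq_false_iff_not] at h2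
          rcases hi with hi | hi
          · exact absurd hi h2.1
          · exact absurd (by simpa using hi) (by simpa using h2.2)
        · exact zeroed_spec hg hL h2
        · exact hK _ (by simpa using h2)
      rw [hv0, mul_zero]
    have hj : (eMat F r *ᵥ v) j = c * v t := by
      rw [eMat_mulVec, hc]
      have : ∀ x ∈ (ent r).filter (fun x => decide (x.1 = j)), x.2.1 = t := fun x hx => by
        obtain ⟨hx1, hx2⟩ := List.mem_filter.1 hx
        exact (hall x hx1).1.resolve_left (by simpa using hx2)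
      revert this
      induction (ent r).filter (fun x => decide (x.1 = j)) with
      | nil => simp
      | cons x l ih =>
        intro hl
        simp only [List.map_cons, List.sum_cons, ih fun y hy => hl y (List.mem_cons_of_mem _ hy),
          hl x List.mem_cons_self, Int.cast_add]
        ring
    have hw : (((x27 r τ * g : GL (Fin 27) F)) : Matrix (Fin 27) (Fin 27) F) *ᵥ eV F w =
        v + τ • (eMat F r *ᵥ v) := by
      rw [Units.val_mul, ← Matrix.mulVec_mulVec, x27_mulVec]
    obtain ⟨u, hu', h5, h6⟩ := sweep_spec hs rest (j :: K) _ (mul_mem (x27_mem r τ) hg)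
      (fix_mul hL (x27_fix hkill τ)) hrest (fun i hi => by
        rw [hw, Pi.add_apply, Pi.smul_apply, smul_eq_mul]
        rcases List.mem_cons.1 hi with rfl | hi
        · rw [hj]
          simp only [τ]
          field_simp
          ring
        · rw [hrow i (Or.inr hi), hK i hi, mul_zero, add_zero])
      (by
        rw [hw, Pi.add_apply, Pi.smul_apply, hrow t (Or.inl rfl), smul_zero, add_zero]
        exact ht')
    exact ⟨u * x27 r τ, mul_mem hu' hu, by rwa [mul_assoc], by rwa [mul_assoc]⟩

theorem branch_spec {s : F} (hs : s ≠ 0 ∧ s ≠ 1) {L : List (Fin 27 × Fin 27)} {w : Fin 27} {b : Branch}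
    (h : branchOK L w b = true) {g : GL (Fin 27) F} (hg : g ∈ Isom F) (hL : Fix g L) {j : Fin 27}
    (hj : j ∈ b.paths.map Prod.fst) (hne : ((g : Matrix (Fin 27) (Fin 27) F) *ᵥ eV F w) j ≠ 0)
    (next : ∀ g', g' ∈ Isom F → Fix g' ((w, b.target) :: L) → g' ∈ G27 F) : g ∈ G27 F := by
  simp only [branchOK, Bool.and_eq_true, List.all_eq_true] at h
  obtain ⟨p, hp, rfl⟩ := List.mem_map.1 hj
  obtain ⟨u, hu, h1, h2, h3⟩ := path_spec p.2 p.1 g hg hL (h.1 p hp) hne
  obtain ⟨u', hu', h4, h5⟩ := sweep_spec hs b.sweep [] _ h1 h2 h.2 (by simp) h3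
  have := mul_mem (inv_mem (mul_mem hu' hu)) (next _ h4 h5)
  simpa [mul_assoc] using this

/-- The certificate reduces everything to the diagonal isometries. -/
theorem reduce_spec {s : F} (hs : s ≠ 0 ∧ s ≠ 1)
    (hdiag : ∀ g : GL (Fin 27) F, g ∈ Isom F →
      (∀ a, ∃ μ : F, μ ≠ 0 ∧ (g : Matrix (Fin 27) (Fin 27) F) *ᵥ eV F a = μ • eV F a) → g ∈ G27 F) :
    ∀ (c : Cert) (L : List (Fin 27 × Fin 27)), c.check L = true →
      ∀ g : GL (Fin 27) F, g ∈ Isom F → Fix g L → g ∈ G27 F
  | .done, L, h, g, hg, hL => by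
    simp only [Cert.check, List.all_eq_true] at h
    exact hdiag g hg fun a => hL (a, a) (by simpa using h a (List.mem_finRange a))
  | .stop w k, L, h, g, hg, hL => by
    obtain ⟨j, hj, -⟩ := covers_spec hg hL (N := []) (by simpa [Cert.check] using h)
    simp at hj
  | .step w k b c, L, h, g, hg, hL => by
    simp only [Cert.check, Bool.and_eq_true] at h
    obtain ⟨j, hj, hne⟩ := covers_spec hg hL h.1.1
    exact branch_spec hs h.1.2 hg hL hj hne (reduce_spec hs hdiag c _ h.2)
  | .split w k b₁ c₁ b₂ c₂, L, h, g, hg, hL => by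
    simp only [Cert.check, Bool.and_eq_true] at h
    obtain ⟨⟨⟨⟨h0, h1⟩, h2⟩, h3⟩, h4⟩ := h
    obtain ⟨j, hj, hne⟩ := covers_spec hg hL h0
    rcases List.mem_append.1 hj with hj | hj
    · exact branch_spec hs h1 hg hL hj hne (reduce_spec hs hdiag c₁ _ h3)
    · exact branch_spec hs h2 hg hL hj hne (reduce_spec hs hdiag c₂ _ h4)

end Cfsg.Agent.E6Cubic
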