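import Cfsg.Agent.E6Cubic.Reduce
import Cfsg.Agent.ChevGrp.RootKer

/-!
# The cubic form group of type E₆ is the Chevalley group (owner: helper33)
-/

set_option autoImplicit false

namespace Cfsg.Agent.E6Cubic

open Cfsg.Lie Cfsg.Agent.ChevTw
open scoped Matrix

variable {F : Type*} [Field F]

/-- A diagonal projection as terms. -/
def projTerms (i : ℕ) (s : ℤ) : List Term :=
  ((List.finRange 27).filter fun a => decide (wgt a i = s)).map fun a => (a.val, a.val, 0, 1)

/-- The identities of a fundamental root pair. -/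
def pairOK (i : ℕ) : Bool :=
  decide (chevE6.simple i < 72) && decide (chevE6.neg (chevE6.simple i) < 72) &&
  eqT 0 (mulT (rootTerms (chevE6.simple i)) (rootTerms (chevE6.neg (chevE6.simple i)))) (projTerms i 1) &&
  eqT 0 (mulT (rootTerms (chevE6.neg (chevE6.simple i))) (rootTerms (chevE6.simple i))) (projTerms i (-1)) &&
  eqT 0 (mulT (projTerms i 1) (rootTerms (chevE6.simple i))) (rootTerms (chevE6.simple i)) &&
  eqT 0 (mulT (projTerms i (-1)) (rootTerms (chevE6.neg (chevE6.simple i))))
    (rootTerms (chevE6.neg (chevE6.simple i))) &&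
  (List.finRange 27).all fun a => decide (wgt a i = 0 ∨ wgt a i = 1 ∨ wgt a i = -1)

theorem pair_check : (List.range 6).all pairOK = true := by decide +kernel

theorem torus_identity {R : Type*} [Ring R] [Algebra F R] {E E' : R} (hE : E * E = 0) (hF : E' * E' = 0)
    (h1 : E * E' * E = E) (h2 : E' * E * E' = E') {u : F} (hu : u ≠ 0) :
    ((1 + u • E) * (1 + (-u⁻¹) • E') * (1 + u • E)) *
      ((1 + (-1 : F) • E) * (1 + (1 : F) • E') * (1 + (-1 : F) • E)) =
      1 - E * E' - E' * E + u • (E * E') + u⁻¹ • (E' * E) := by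
  have hn : ∀ v : F, v ≠ 0 → (1 + v • E) * (1 + (-v⁻¹) • E') * (1 + v • E) =
      1 - E * E' - E' * E + v • E - v⁻¹ • E' := fun v hv => by
    rw [show (1 + v • E) * (1 + (-v⁻¹) • E') * (1 + v • E) =
      1 + v • E + v • E + (-v⁻¹) • E' + (v * -v⁻¹) • (E * E') + (-v⁻¹ * v) • (E' * E) +
        (v * -v⁻¹ * v) • (E * E' * E) + (v * v) • (E * E) by
      simp only [add_mul, mul_add, one_mul, mul_one, smul_mul_assoc, mul_smul_comm, smul_smul, mul_assoc]
      module, h1, hE, show v * -v⁻¹ = -1 by rw [mul_neg, mul_inv_cancel₀ hv],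
      show -v⁻¹ * v = -1 by rw [neg_mul, inv_mul_cancel₀ hv]]
    module
  have hn1 := hn (-1) (neg_ne_zero.2 one_ne_zero)
  rw [show -(-1 : F)⁻¹ = 1 by simp] at hn1
  rw [hn u hu, hn1]
  set P := E * E' with hP
  set Q := E' * E with hQ
  have pE : P * E = E := h1
  have qF : Q * E' = E' := h2
  have ep : E * P = 0 := by rw [hP, ← mul_assoc, hE, zero_mul]
  have eq' : E * Q = E := by rw [hQ, ← mul_assoc]; exact h1
  have qe : Q * E = 0 := by rw [hQ, mul_assoc, hE, mul_zero]
  have fp : E' * P = E' := by rw [hP, ← mul_assoc]; exact h2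
  have fq : E' * Q = 0 := by rw [hQ, ← mul_assoc, hF, zero_mul]
  have pf : P * E' = 0 := by rw [hP, mul_assoc, hF, mul_zero]
  have pp : P * P = P := by rw [hP, ← mul_assoc, h1]
  have qq : Q * Q = Q := by rw [hQ, ← mul_assoc, h2]
  have pq : P * Q = 0 := by rw [hQ, ← mul_assoc, pf, zero_mul]
  have qp : Q * P = 0 := by rw [hP, ← mul_assoc, qe, zero_mul]
  simp only [add_mul, mul_add, sub_mul, mul_sub, one_mul, mul_one, smul_mul_assoc, mul_smul_comm, pE, qF, ep, eq',
    qe, fp, fq, pf, pp, qq, pq, qp, hE, hF, ← hP, ← hQ, smul_zero, inv_neg, inv_one, neg_smul, one_smul, smul_neg,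
    mul_neg, neg_mul, neg_zero, neg_neg]
  module

variable (F) in
/-- The diagonal elements. -/
noncomputable def diagHom : (Fin 27 → Fˣ) →* GL (Fin 27) F :=
  (Units.map (Matrix.diagonalRingHom (Fin 27) F).toMonoidHom).comp MulEquiv.piUnits.symm.toMonoidHom

theorem val_diagHom (c : Fin 27 → Fˣ) :
    (diagHom F c : Matrix (Fin 27) (Fin 27) F) = Matrix.diagonal fun a => ((c a : Fˣ) : F) := rfl

theorem evalT_proj (i : ℕ) (s : ℤ) :
    evalT 27 (1 : F) (projTerms i s) = Matrix.diagonal fun a => if wgt a i = s then (1 : F) else 0 := by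
  ext a b
  rw [evalT_one_entry, Matrix.diagonal_apply, entrySum, projTerms]
  have h : ∀ L : List (Fin 27), L.Nodup →
      ((((((L.filter fun a => decide (wgt a i = s)).map fun a => ((a.val, a.val, 0, 1) : Term)).filter
        fun y => decide (y.1 = a.val) && decide (y.2.1 = b.val)).map fun y => y.2.2.2).sum : ℤ) : F) =
      if a = b ∧ a ∈ L ∧ wgt a i = s then 1 else 0 := by
    intro L hL
    induction L with
    | nil => simp
    | cons x L ih =>
      obtain ⟨hx, hL⟩ := List.nodup_cons.1 hL
      have ih := ih hL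
      by_cases hxs : wgt x i = s
      · simp only [List.filter_cons, decide_eq_true hxs, if_true, List.map_cons]
        by_cases hxa : x = a
        · subst hxa
          by_cases hxb : x = b
          · subst hxb
            simp [hx] at ih
            simp [hxs, ih]
          · have : x.val ≠ b.val := fun e => hxb (Fin.ext e)
            simp [this, hxb, ih]
        · have : x.val ≠ a.val := fun e => hxa (Fin.ext e)
          simp [this, ih, Ne.symm hxa]
      · rw [List.filter_cons, if_neg (by simpa using hxs), ih]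
        by_cases hax : a = x
        · subst hax; simp [hxs, hx]
        · simp [hax]
  rw [h _ (List.nodup_finRange 27)]
  by_cases hab : a = b <;> simp [hab]

theorem torus_mem {i : ℕ} (hi : i < 6) (u : Fˣ) : diagHom F (fun a => u ^ wgt a i) ∈ G27 F := by
  have h := List.all_eq_true.1 pair_check i (List.mem_range.2 hi)
  simp only [pairOK, Bool.and_eq_true, decide_eq_true_eq, List.all_eq_true] at h
  obtain ⟨⟨⟨⟨⟨⟨hr, hr'⟩, h1⟩, h2⟩, h3⟩, h4⟩, h5⟩ := h
  set r := chevE6.simple i
  set r' := chevE6.neg r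
  have e1 := evalT_eq (F := F) 1 h1
  have e2 := evalT_eq (F := F) 1 h2
  have e3 := evalT_eq (F := F) 1 h3
  have e4 := evalT_eq (F := F) 1 h4
  have hproj : ∀ s, ∀ x ∈ projTerms i s, x.2.1 < 27 := fun s x hx => by
    obtain ⟨y, -, rfl⟩ := List.mem_map.1 hx; exact y.isLt
  rw [evalT_mul 27 1 _ _ (rootTerms_lt _)] at e1 e2
  rw [evalT_mul 27 1 _ _ (hproj _)] at e3 e4
  have hE : eMat F r * eMat F r' * eMat F r = eMat F r := by
    show evalT 27 (1 : F) _ * evalT 27 (1 : F) _ * evalT 27 (1 : F) _ = evalT 27 (1 : F) _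
    rw [e1, e3]
  have hF : eMat F r' * eMat F r * eMat F r' = eMat F r' := by
    show evalT 27 (1 : F) _ * evalT 27 (1 : F) _ * evalT 27 (1 : F) _ = evalT 27 (1 : F) _
    rw [e2, e4]
  have key := torus_identity (F := F) (eMat_sq r) (eMat_sq r') hE hF u.ne_zero
  have hg : x27 r (u : F) * x27 r' (-(u : F)⁻¹) * x27 r (u : F) * (x27 r (-1) * x27 r' 1 * x27 r (-1)) ∈ G27 F :=
    mul_mem (mul_mem (mul_mem (x27_mem_G27 hr _) (x27_mem_G27 hr' _)) (x27_mem_G27 hr _))
      (mul_mem (mul_mem (x27_mem_G27 hr _) (x27_mem_G27 hr' _)) (x27_mem_G27 hr _))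
  convert hg using 1
  refine Units.ext ?_
  simp only [Units.val_mul, val_x27]
  rw [key, val_diagHom, show eMat F r * eMat F r' = evalT 27 (1 : F) (projTerms i 1) from e1,
    show eMat F r' * eMat F r = evalT 27 (1 : F) (projTerms i (-1)) from e2, evalT_proj, evalT_proj,
    ← Matrix.diagonal_one, Matrix.diagonal_sub, Matrix.diagonal_sub, ← Matrix.diagonal_smul,
    ← Matrix.diagonal_smul, Matrix.diagonal_add, Matrix.diagonal_add]
  congr 1
  funext a
  rcases h5 a (List.mem_finRange a) with e | e | e <;> simp [e]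

/-- The left inverse of the weights. -/
def Minv : Matrix (Fin 6) (Fin 27) ℤ := Cfsg.Agent.ChevGrp.matOfList weightInv

/-- The weights. -/
def Wmat : Matrix (Fin 27) (Fin 6) ℤ := Matrix.of fun a i => wgt a i.val

/-- The defect. -/
def Ndef : Matrix (Fin 27) (Fin 45) ℤ := Cfsg.Agent.ChevGrp.matOfList weightDefect

/-- The monomial incidence. -/
def incMat : Matrix (Fin 45) (Fin 27) ℤ := Matrix.of fun m b =>
  let x := monList.getD m.val (0, 0, 0, 0)
  (if x.1 = b then 1 else 0) + (if x.2.1 = b then 1 else 0) + (if x.2.2.1 = b then 1 else 0)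

theorem torus_cert : Wmat * Minv + Ndef * incMat = 1 := by decide +kernel

theorem monList_length : monList.length = 45 := by decide +kernel

theorem diag_mem {g : GL (Fin 27) F} (hg : g ∈ Isom F)
    (hd : ∀ a, ∃ μ : F, μ ≠ 0 ∧ (g : Matrix (Fin 27) (Fin 27) F) *ᵥ eV F a = μ • eV F a) : g ∈ G27 F := by
  choose μ hμ he using hd
  set c : Fin 27 → Fˣ := fun a => Units.mk0 (μ a) (hμ a)
  have hgc : g = diagHom F c := by
    refine Units.ext (Matrix.ext fun a b => ?_)
    have e := congrFun (he b) a
    rw [eV, Matrix.mulVec_single_one, Matrix.col_apply, Pi.smul_apply, smul_eq_mul, Pi.single_apply] at e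
    rw [e, val_diagHom, Matrix.diagonal_apply]
    by_cases h : a = b <;> simp [h, c]
  have hmon : ∀ m ∈ monList, μ m.1 * μ m.2.1 * μ m.2.2.1 = 1 := by
    intro m hm
    have e := pol_Isom hg (eV F m.1) (eV F m.2.1) (eV F m.2.2.1)
    rw [he, he, he, pol, pol, value3_smul, value3_all] at e
    exact (mul_eq_right₀ (cast_unit_ne_zero (monList_unit m hm))).1 e
  have hinc : ChevGrp.powMap incMat.transpose c = 1 := by
    funext k
    have hk : k.val < monList.length := by rw [monList_length]; exact k.isLt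
    have hm := hmon _ (List.getElem_mem hk)
    have hsel : ∀ x : Fin 27, (∏ b : Fin 27, c b ^ (if x = b then (1 : ℤ) else 0)) = c x := fun x => by
      rw [Finset.prod_eq_single x (fun b _ hb => by simp [Ne.symm hb]) (by simp)]
      simp
    simp only [ChevGrp.powMap, Matrix.transpose_apply, incMat, Matrix.of_apply, List.getD_eq_getElem monList _ hk,
      zpow_add, Finset.prod_mul_distrib, hsel, Pi.one_apply]
    exact Units.ext (by simpa [c] using hm)
  have hcert : Minv.transpose * Wmat.transpose + incMat.transpose * Ndef.transpose = 1 := by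
    rw [← Matrix.transpose_mul, ← Matrix.transpose_mul, ← Matrix.transpose_add, torus_cert, Matrix.transpose_one]
  have hc : c = ∏ i : Fin 6, fun a => ChevGrp.powMap Minv.transpose c i ^ wgt a i.val := by
    have e := ChevGrp.powMap_one c
    rw [← hcert, ChevGrp.powMap_add, ChevGrp.powMap_mul, ChevGrp.powMap_mul, hinc, ChevGrp.powMap_one_right,
      mul_one] at e
    conv_lhs => rw [← e]
    funext a
    rw [Finset.prod_apply]
    rfl
  rw [hgc, hc]
  show _ ∈ (G27 F).comap (diagHom F) 
  exact Subgroup.prod_mem _ fun i _ => torus_mem i.isLt _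

theorem Isom_eq [Fintype F] (hF : 3 ≤ Fintype.card F) : Isom F = G27 F := by
  refine le_antisymm (fun g hg => ?_) ?_
  · obtain ⟨s, hs⟩ := exists_scalar hF
    exact reduce_spec hs (fun g hg hd => diag_mem hg hd) reduceCert [] reduce_check g hg (by simp [Fix])
  · show Subgroup.closure _ ≤ _
    rw [Subgroup.closure_le]
    rintro _ ⟨r, -, t, rfl⟩
    exact x27_mem r t

/-- The cubic form group modulo its centre is the Chevalley group. -/
theorem E6_equiv [Fintype F] (hF : 3 ≤ Fintype.card F) :
    Nonempty (E6 F ≃* ↥(chevE6.group F)) := by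
  let e : ↥(E6univ F) ≃* ↥(G27 F) := (univEquiv F).trans (MulEquiv.subgroupCongr (Isom_eq hF))
  have hcenter : (Subgroup.center ↥(E6univ F)).map e.toMonoidHom = (adj F).ker := by
    rw [adj_ker]
    ext x
    rw [Subgroup.mem_map_equiv, Subgroup.mem_center_iff, Subgroup.mem_center_iff]
    constructor
    · intro h y
      have := congrArg e (h (e.symm y))
      simpa using this
    · intro h y
      apply e.injective
      simpa using h (e y)
  exact ⟨((QuotientGroup.congr _ _ e hcenter).trans (QuotientGroup.quotientKerEquivRange (adj F))).trans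
    (MulEquiv.subgroupCongr adj_range)⟩

end Cfsg.Agent.E6Cubic
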